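import Cfsg.Agent.Fus.AltNorm

/-!
# The `p`-fusion system of an alternating group is simple (`p² ≤ n`, `6 ≤ n`, `n % p ≤ 1`)
-/

set_option autoImplicit false

namespace Cfsg.Agent.Fus.Alt

open Cfsg Cfsg.FusionSystem Equiv Equiv.Perm

section Plane

variable {κ : Type*} {p : ℕ} [hp : Fact p.Prime]

/-- Translations of the plane formed by the first `p` blocks and in the other blocks. -/
def rho : Multiplicative ((ZMod p × ZMod p) × (κ → ZMod p)) →* Perm ((ZMod p ⊕ κ) × ZMod p) where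
  toFun v := tr (Multiplicative.ofAdd (Sum.elim (fun _ => v.toAdd.1.2) v.toAdd.2)) *
    pm p (Equiv.sumCongr (Equiv.addRight v.toAdd.1.1) 1)
  map_one' := by ext ⟨i | i, t⟩ <;> simp
  map_mul' v w := by
    ext ⟨i | i, t⟩ <;> simp [add_assoc, add_comm v.toAdd.1.1, add_comm v.toAdd.1.2,
      add_comm (v.toAdd.2 _)]

@[simp] theorem rho_inl (v : Multiplicative ((ZMod p × ZMod p) × (κ → ZMod p))) (i t : ZMod p) :
    rho v (.inl i, t) = (.inl (i + v.toAdd.1.1), t + v.toAdd.1.2) := rfl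

@[simp] theorem rho_inr (v : Multiplicative ((ZMod p × ZMod p) × (κ → ZMod p))) (k : κ)
    (t : ZMod p) : rho v (.inr k, t) = (.inr k, t + v.toAdd.2 k) := rfl

theorem rho_pow (v : Multiplicative ((ZMod p × ZMod p) × (κ → ZMod p))) : rho v ^ p = 1 := by
  rw [← map_pow, show v ^ p = 1 from ?_, map_one]
  apply Multiplicative.toAdd.injective
  ext i <;> simp

theorem isAff_rho (v : Multiplicative ((ZMod p × ZMod p) × (κ → ZMod p))) : IsAff (rho v) := by
  rintro (i | k)
  · exact ⟨_, 1, _, fun t => by rw [rho_inl, Units.val_one, one_mul]⟩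
  · exact ⟨_, 1, _, fun t => by rw [rho_inr, Units.val_one, one_mul]⟩

theorem mem_range_rho_of_commute [DecidableEq κ] {g : Perm ((ZMod p ⊕ κ) × ZMod p)}
    (h : ∀ v, g * rho v = rho v * g) : g ∈ (rho (κ := κ) (p := p)).range := by
  have h1 : ∀ k : κ, ∃ m, ∀ t, g (.inr k, t) = (.inr k, t + m) := fun k =>
    apply_eq_of_commute fun a => ⟨Multiplicative.ofAdd (Pi.single (.inr k) 1), by simp,
      fun ha => by simp [ha], by
        convert h (Multiplicative.ofAdd (0, Pi.single k 1)) <;>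
        · ext ⟨i | i, t⟩ <;> simp [Pi.single_apply]⟩
  choose m hm using h1
  have h2 : ∀ i t, g (.inl i, t) = rho (Multiplicative.ofAdd ((i, t), 0)) (g (.inl 0, 0)) :=
    fun i t => by rw [← Perm.mul_apply, ← h]; simp
  obtain ⟨⟨a | a, b⟩, hu⟩ : ∃ u, g (.inl 0, 0) = u := ⟨_, rfl⟩
  · refine ⟨Multiplicative.ofAdd ((a, b), m), ?_⟩
    ext ⟨i | k, t⟩ : 1
    · rw [h2, hu]; simp [add_comm]
    · rw [hm]; rfl
  · have := h2 1 0
    rw [hu, rho_inr] at this
    replace this : g (.inl 1, 0) = g (.inl 0, 0) := by rw [this, hu]; simp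
    simpa using g.injective this

theorem exists_rho_moves (u : (ZMod p ⊕ κ) × ZMod p) :
    ∃ r ∈ (rho (κ := κ) (p := p)).range, r u ≠ u := by
  refine ⟨_, ⟨Multiplicative.ofAdd ((0, 1), fun _ => 1), rfl⟩, ?_⟩
  obtain ⟨i | i, t⟩ := u <;> simp

variable (κ) in
/-- Permutations of the plane. -/
def pl : Perm (ZMod p × ZMod p) →* Perm ((ZMod p ⊕ κ) × ZMod p) where
  toFun e := (Equiv.sumProdDistrib _ _ _).symm.permCongr (Equiv.sumCongr e 1)
  map_one' := by ext ⟨i | i, t⟩ <;> simp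
  map_mul' v w := by ext ⟨i | i, t⟩ <;> simp

omit hp in
@[simp] theorem pl_inl (e : Perm (ZMod p × ZMod p)) (i t : ZMod p) :
    pl κ e (.inl i, t) = (.inl (e (i, t)).1, (e (i, t)).2) := rfl

omit hp in
@[simp] theorem pl_inr (e : Perm (ZMod p × ZMod p)) (k : κ) (t : ZMod p) :
    pl κ e (.inr k, t) = (.inr k, t) := rfl

theorem pl_mem_normalizer [Finite κ] {e : Perm (ZMod p × ZMod p)}
    (he : ∀ u v, e (u + v) = e u + e v) :
    pl κ e ∈ Subgroup.normalizer ((rho (κ := κ) (p := p)).range : Set _) := by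
  refine Subgroup.mem_normalizer_fintype ?_
  rintro _ ⟨v, rfl⟩
  refine ⟨Multiplicative.ofAdd (e v.toAdd.1, v.toAdd.2), ?_⟩
  rw [eq_mul_inv_iff_mul_eq]
  ext ⟨i | i, t⟩ : 1
  · have := he (i, t) v.toAdd.1
    simp only [Perm.mul_apply, pl_inl, rho_inl, toAdd_ofAdd]
    rw [show (i + v.toAdd.1.1, t + v.toAdd.1.2) = (i, t) + v.toAdd.1 from rfl, this]
    rfl
  · simp

/-- An elementary matrix. -/
def elU : Multiplicative (ZMod p) →* Perm (ZMod p × ZMod p) where
  toFun a := Equiv.prodCongrRight fun i => Equiv.addRight (a.toAdd * i)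
  map_one' := by ext ⟨i, t⟩ <;> simp
  map_mul' a b := by ext ⟨i, t⟩ <;> simp; ring

/-- An elementary matrix. -/
def elL : Multiplicative (ZMod p) →* Perm (ZMod p × ZMod p) where
  toFun a := Equiv.prodCongrLeft fun t => Equiv.addRight (a.toAdd * t)
  map_one' := by ext ⟨i, t⟩ <;> simp
  map_mul' a b := by ext ⟨i, t⟩ <;> simp; ring

@[simp] theorem elU_apply (a : Multiplicative (ZMod p)) (i t : ZMod p) :
    elU a (i, t) = (i, t + a.toAdd * i) := rfl

@[simp] theorem elL_apply (a : Multiplicative (ZMod p)) (i t : ZMod p) :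
    elL a (i, t) = (i + a.toAdd * t, t) := rfl

theorem mult_pow (a : Multiplicative (ZMod p)) : a ^ p = 1 := by
  apply Multiplicative.toAdd.injective
  simp

theorem exists_torus [Fintype κ] {K : Subgroup (Perm ((ZMod p ⊕ κ) × ZMod p))}
    (hpp : ∀ g ∈ Subgroup.normalizer ((rho (κ := κ) (p := p)).range : Set _), g ^ p = 1 → g ∈ K)
    (a : (ZMod p)ˣ) : ∃ σ l, ∏ i, l i = a ∧ pm p σ * dg l ∈ K := by
  have hU : ∀ b, pl κ (elU (.ofAdd b)) ∈ K := fun b => hpp _ (pl_mem_normalizer (by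
    rintro ⟨i, t⟩ ⟨j, s⟩; simp; ring)) (by rw [← map_pow, ← map_pow, mult_pow, map_one, map_one])
  have hL : ∀ b, pl κ (elL (.ofAdd b)) ∈ K := fun b => hpp _ (pl_mem_normalizer (by
    rintro ⟨i, t⟩ ⟨j, s⟩; simp; ring)) (by rw [← map_pow, ← map_pow, mult_pow, map_one, map_one])
  refine ⟨Equiv.sumCongr (a⁻¹).mulLeft 1, Sum.elim (fun _ => a) 1, ?_, ?_⟩
  · rw [Fintype.prod_sum_type]
    apply Units.ext
    simp [ZMod.pow_card]
  · convert K.mul_mem (K.mul_mem (K.mul_mem (hU a) (hL (-((a⁻¹ : (ZMod p)ˣ) : ZMod p)))) (hU a))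
      (K.mul_mem (K.mul_mem (hU (-1)) (hL 1)) (hU (-1))) using 1
    ext ⟨i | i, t⟩ : 1
    · have := a.inv_mul
      simp only [Perm.mul_apply, pl_inl, elU_apply, elL_apply, toAdd_ofAdd, dg_apply, pm_apply,
        Sum.elim_inl, Equiv.sumCongr_apply, Sum.map_inl, Units.mulLeft_apply, Prod.mk.injEq,
        Sum.inl.injEq]
      generalize ((a⁻¹ : (ZMod p)ˣ) : ZMod p) = b at this ⊢
      generalize (a : ZMod p) = c at this ⊢
      constructor
      · linear_combination t * this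
      · linear_combination (-i + c * t) * this
    · simp only [Perm.mul_apply, pl_inr, dg_apply, pm_apply, Sum.elim_inr, Pi.one_apply,
        Units.val_one, one_mul]
      rfl

end Plane

section Embed

variable {α Ω : Type*} (e : α ↪ Ω) (hsub : ∀ u v, u ∉ Set.range e → v ∉ Set.range e → u = v)

theorem via_apply (g : Perm α) (a : α) : viaEmbeddingHom e g (e a) = e (g a) :=
  viaEmbedding_apply g e a

theorem via_apply_of_notMem (g : Perm α) {u : Ω} (h : u ∉ Set.range e) :
    viaEmbeddingHom e g u = u := viaEmbedding_apply_of_notMem g e u h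

theorem mem_range_via {g : Perm Ω} (h : ∀ u, u ∉ Set.range e → g u = u) :
    g ∈ (viaEmbeddingHom e).range := by
  have h1 : ∀ u, g u ∈ Set.range e ↔ u ∈ Set.range e := fun u => by
    refine ⟨fun h2 => by_contra fun h3 => h3 (h u h3 ▸ h2), fun h2 => by_contra fun h3 => h3 ?_⟩
    rwa [g.injective (h _ h3)]
  refine ⟨(Equiv.ofInjective e e.2).symm.permCongr (g.subtypePerm h1), ?_⟩
  ext u
  by_cases h2 : u ∈ Set.range e
  · obtain ⟨a, rfl⟩ := h2
    rw [via_apply]
    exact Equiv.apply_ofInjective_symm e.2 _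
  · rw [via_apply_of_notMem e _ h2, h u h2]

include hsub in
theorem mem_range_via_of_conj {R : Subgroup (Perm α)} (hR : ∀ a, ∃ r ∈ R, r a ≠ a) {g : Perm Ω}
    (h : ∀ r ∈ R, g * viaEmbeddingHom e r * g⁻¹ ∈ (viaEmbeddingHom e).range) :
    g ∈ (viaEmbeddingHom e).range := by
  refine mem_range_via e fun u hu => ?_
  rw [← Perm.eq_inv_iff_eq]
  refine hsub _ _ hu ?_
  rintro ⟨a, ha⟩
  obtain ⟨r, hr, h1⟩ := hR a
  obtain ⟨s, hs⟩ := h r hr
  have h2 := via_apply_of_notMem e s hu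
  rw [hs, Perm.mul_apply, Perm.mul_apply, ← ha, via_apply, ← Perm.eq_inv_iff_eq, ← ha] at h2
  exact h1 (e.injective h2)

include hsub in
theorem pCent_map {p : ℕ} {H : Subgroup (Perm Ω)} {R : Subgroup (Perm α)}
    (hR : ∀ a, ∃ r ∈ R, r a ≠ a)
    (hc : ∀ g, viaEmbeddingHom e g ∈ H → (∀ r ∈ R, g * r = r * g) → g ∈ R) :
    PCent p H (R.map (viaEmbeddingHom e)) := by
  intro g hg _ h
  obtain ⟨g, rfl⟩ := mem_range_via_of_conj e hsub hR (g := g) fun r hr => by
    rw [h _ (Subgroup.mem_map_of_mem _ hr), mul_inv_cancel_right]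
    exact ⟨r, rfl⟩
  refine Subgroup.mem_map_of_mem _ (hc g hg fun r hr => viaEmbeddingHom_injective e ?_)
  rw [map_mul, map_mul, h _ (Subgroup.mem_map_of_mem _ hr)]

theorem via_mem_alt [Fintype α] [DecidableEq α] [Fintype Ω] [DecidableEq Ω] {g : Perm α} :
    viaEmbeddingHom e g ∈ alternatingGroup Ω ↔ g ∈ alternatingGroup α := by
  rw [mem_alternatingGroup, mem_alternatingGroup, viaEmbeddingHom_apply, viaEmbedding,
    sign_extendDomain]

include hsub in
theorem le_range_via {p : ℕ} [Fact p.Prime] [Finite Ω] (hα : p ∣ Nat.card α)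
    {R : Subgroup (Perm α)} (hR : ∀ a, ∃ r ∈ R, r a ≠ a) {P : Subgroup (Perm Ω)}
    (hP : IsPGroup p P) (h : R.map (viaEmbeddingHom e) ≤ P) : P ≤ (viaEmbeddingHom e).range := by
  intro g hg
  refine mem_range_via e fun u hu => ?_
  have h1 : Nat.card Ω = Nat.card α + 1 := by
    have := Finite.of_injective e e.injective
    have h2 : (Set.range e)ᶜ = {u} := Set.eq_singleton_iff_unique_mem.2 ⟨hu, fun v hv =>
      hsub v u hv hu⟩
    rw [← Set.ncard_add_ncard_compl (Set.range e), h2, Set.ncard_singleton,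
      Set.ncard_range_of_injective e.injective]
  obtain ⟨v, hv⟩ := hP.nonempty_fixed_point_of_prime_not_dvd_card Ω (by
    rw [h1, Nat.dvd_add_right hα, Nat.dvd_one]
    exact (Fact.out : p.Prime).one_lt.ne')
  have h3 : v ∉ Set.range e := by
    rintro ⟨a, rfl⟩
    obtain ⟨r, hr, h4⟩ := hR a
    have := hv ⟨_, h (Subgroup.mem_map_of_mem _ hr)⟩
    exact h4 (e.injective ((via_apply e r a).symm.trans this))
  rw [hsub u v hu h3]
  exact hv ⟨g, hg⟩

end Embed

theorem map_mem_normalizer {G G' : Type*} [Group G] [Group G'] (j : G →* G') {R : Subgroup G}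
    {g : G} (h : g ∈ Subgroup.normalizer (R : Set G)) :
    j g ∈ Subgroup.normalizer (R.map j : Set G') :=
  Subgroup.le_normalizer_map j (Subgroup.mem_map_of_mem j h)

theorem mem_normalizer_inf {G : Type*} [Group G] {R A : Subgroup G} [A.Normal] {g : G}
    (h : g ∈ Subgroup.normalizer (R : Set G)) :
    g ∈ Subgroup.normalizer ((R ⊓ A : Subgroup G) : Set G) :=
  Subgroup.inf_normalizer_le_normalizer_inf
    ⟨h, by rw [Subgroup.normalizer_eq_top]; trivial⟩

theorem exists_isSimple {κ Ω : Type*} [Fintype κ] [DecidableEq κ] [Fintype Ω] [DecidableEq Ω]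
    {p : ℕ} [hp : Fact p.Prime] (h3 : 3 ≤ p + Fintype.card κ) (e : (ZMod p ⊕ κ) × ZMod p ↪ Ω)
    (hsub : ∀ u v, u ∉ Set.range e → v ∉ Set.range e → u = v) :
    ∃ S, ∃ hSH : S ≤ alternatingGroup Ω, SylIn p S (alternatingGroup Ω) ∧
      (fusionSystemOfSubgroup _ S hSH).IsSimple p := by
  have hι : Fintype.card (ZMod p ⊕ κ) = p + Fintype.card κ := by simp
  have h3' := hι ▸ h3
  set j := viaEmbeddingHom e
  have hj : Function.Injective j := viaEmbeddingHom_injective e
  set V := (tr (ι := ZMod p ⊕ κ) (p := p)).range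
  set R := (rho (κ := κ) (p := p)).range
  have hR : IsPGroup p R := by
    rintro ⟨_, v, rfl⟩
    exact ⟨1, Subtype.ext (by simpa using rho_pow v)⟩
  have hW : IsPGroup p (V ⊔ R : Subgroup _) := isPGroup_range_tr.to_sup_of_normal_left' hR (by
    rintro _ ⟨v, rfl⟩; exact (isAff_rho v).mem_normalizer)
  obtain ⟨P, hWP, -, hP⟩ := exists_sylIn (hW.map j) (le_top (a := (V ⊔ R).map j))
  have hPp := hP.isPGroup le_top
  have hS := hP.inf_normal le_top (le_top (a := alternatingGroup Ω))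
    fun g _ n hn => Subgroup.Normal.conj_mem inferInstance n hn g
  set S := P ⊓ alternatingGroup Ω
  have hVP : ∀ v ∈ V, j v ∈ P := fun v hv =>
    hWP (Subgroup.mem_map_of_mem _ (Subgroup.mem_sup_left hv))
  have hV0 : (V ⊓ alternatingGroup _).map j ≤ S := by
    rintro _ ⟨v, hv, rfl⟩
    exact ⟨hVP v hv.1, (via_mem_alt e).2 hv.2⟩
  have hSr : S ≤ j.range := le_range_via e hsub (by simp) (exists_moves h3')
    (hPp.to_le inf_le_left) hV0
  have hcard : p + 2 ≤ Fintype.card Ω := by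
    refine le_trans ?_ (Fintype.card_le_of_embedding e)
    rw [Fintype.card_prod, hι, ZMod.card]
    have := hp.out.two_le
    nlinarith
  refine ⟨S, inf_le_right, hS, isSimple_of_kFam _ hS (fun h => ?_)
    (fun T hT => le_of_sClosed inf_le_right hS hcard hT) fun K hK x hx => ?_⟩
  · obtain ⟨r, hr, h1⟩ := exists_moves (p := p) h3' (.inl 0, 0)
    have h2 := hV0 (Subgroup.mem_map_of_mem j hr)
    rw [h, Subgroup.mem_bot, map_eq_one_iff j hj] at h2
    exact h1 (by rw [h2]; rfl)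
  have hcV : PCent p (alternatingGroup Ω) ((V ⊓ alternatingGroup _).map j) :=
    pCent_map e hsub (exists_moves h3') fun g hg h =>
      ⟨mem_range_tr_of_commute h3' h, (via_mem_alt e).1 hg⟩
  refine hK.up _ _ hV0 le_rfl hcV x hx ?_
  obtain ⟨x, rfl⟩ := mem_range_via_of_conj e hsub (exists_moves h3') (g := x) fun r hr =>
    hSr (conj_mem_of_mem_normalizerIn hx (hV0 (Subgroup.mem_map_of_mem _ hr)))
  have hxA := (via_mem_alt e).1 hx.1
  have hx1 : ∀ s ∈ S.comap j, x * s * x⁻¹ ∈ S.comap j := fun s hs => by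
    rw [Subgroup.mem_comap, map_mul, map_mul, map_inv]
    exact conj_mem_of_mem_normalizerIn hx hs
  have hx2 : ∀ s ∈ S.comap j, x⁻¹ * s * x ∈ S.comap j := fun s hs => by
    rw [Subgroup.mem_comap, map_mul, map_mul, map_inv]
    exact conj_mem_of_mem_normalizerIn' hx hs
  have hS0 : IsPGroup p (S.comap j) := (hPp.to_le inf_le_left).comap_of_injective j hj
  have hpp : ∀ g ∈ Subgroup.normalizer (V : Set _), g ∈ alternatingGroup _ → g ^ p = 1 →
      g ∈ (K ((V ⊓ alternatingGroup _).map j)).comap j := fun g hg hgA hgp =>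
    hK.pp _ hV0 _ ⟨(via_mem_alt e).2 hgA, map_mem_normalizer j (mem_normalizer_inf hg)⟩ 1
      (by rw [pow_one, ← map_pow, hgp, map_one])
  by_cases h2 : p = 2
  · subst h2
    refine mem_of_isAff_two hpp (isAff_of_two h3' hS0 (Subgroup.map_le_iff_le_comap.1 hV0)
      (fun v hv s hs => ?_) hx1 hx2) hxA
    rw [Subgroup.mem_comap, map_mul, map_mul, map_inv]
    exact ⟨P.mul_mem (P.mul_mem (hVP v hv) hs.1) (P.inv_mem (hVP v hv)),
      Subgroup.Normal.conj_mem inferInstance _ hs.2 _⟩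
  have hodd := hp.out.odd_of_ne_two h2
  have hPA : P ≤ alternatingGroup Ω := fun g hg => by
    obtain ⟨k, hk⟩ := hPp ⟨g, hg⟩
    exact mem_alt_of_odd hodd.pow (congrArg Subtype.val hk)
  have hRS : R.map j ≤ S := fun g hg =>
    have := hWP (Subgroup.map_mono le_sup_right hg)
    ⟨this, hPA this⟩
  have hcR : PCent p (alternatingGroup Ω) (R.map j) :=
    pCent_map e hsub exists_rho_moves fun g _ h =>
      mem_range_rho_of_commute fun v => h _ ⟨v, rfl⟩
  refine mem_of_isAff_odd h2 (by omega) (K := (K _).comap j)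
    (fun g hg => (via_mem_alt e).1 (hK.le _ hg).1)
    (fun g hg hgp => hpp g hg (mem_alt_of_odd hodd hgp) hgp) (fun a => ?_)
    (isAff_of_odd h2 hS0 (fun v hv => ⟨hVP v hv, hPA (hVP v hv)⟩) hx1) hxA
  obtain ⟨σ, l, h4, h5⟩ := exists_torus (K := (K (R.map j)).comap j) (fun g hg hgp =>
    hK.pp _ hRS _ ⟨(via_mem_alt e).2 (mem_alt_of_odd hodd hgp), map_mem_normalizer j hg⟩ 1
      (by rw [pow_one, ← map_pow, hgp, map_one])) a
  exact ⟨σ, l, h4, hK.move hRS hV0 hcR ⟨(hK.le _ h5).1, map_mem_normalizer j (mem_normalizer_inf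
    (mul_mem (pm_mem_normalizer σ) (dg_mem_normalizer l)))⟩ h5⟩

theorem isSimple_alternating {Ω : Type*} [Fintype Ω] [DecidableEq Ω] {p : ℕ} [hp : Fact p.Prime]
    (hn : 6 ≤ Fintype.card Ω) (hnp : p ^ 2 ≤ Fintype.card Ω) (hb : Fintype.card Ω % p ≤ 1)
    (S : Sylow p (alternatingGroup Ω)) :
    (groupFusionSystem (S : Subgroup (alternatingGroup Ω))).IsSimple p := by
  set n := Fintype.card Ω
  have h0 := hp.out.pos
  have h1 : p ≤ n / p := (Nat.le_div_iff_mul_le h0).2 (by rwa [← pow_two])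
  have h2 := Nat.div_add_mod n p
  have hc : Fintype.card ((ZMod p ⊕ Fin (n / p - p)) × ZMod p) = p * (n / p) := by
    simp only [Fintype.card_prod, Fintype.card_sum, ZMod.card, Fintype.card_fin]
    rw [Nat.add_sub_cancel' h1, mul_comm]
  obtain ⟨e⟩ := Function.Embedding.nonempty_of_card_le (β := Ω) (hc.le.trans (by omega))
  obtain ⟨S', hSH, hS, h⟩ := exists_isSimple (by
    rw [Fintype.card_fin, Nat.add_sub_cancel' h1]
    by_cases h3 : p = 2
    · subst h3; omega
    · have := hp.out.two_le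
      omega) e fun u v hu hv => by
    have h3 := Set.ncard_add_ncard_compl (Set.range e)
    rw [Set.ncard_range_of_injective e.injective, Nat.card_eq_fintype_card,
      Nat.card_eq_fintype_card, hc] at h3
    exact (Set.ncard_le_one (s := (Set.range e)ᶜ) (Set.toFinite _)).1 (by omega) u hu v hv
  exact isSimple_group_of_hom _ (Subgroup.subtype_injective _) (Subgroup.range_subtype _) hSH hS h S

end Cfsg.Agent.Fus.Alt
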