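import Cfsg.Agent.Fus.AltClosed

/-!
# Block-affine permutations of `ι × ZMod p`: the base group of a Sylow `p`-subgroup of a symmetric
group, its centralizer and normalizer
-/

set_option autoImplicit false

namespace Cfsg.Agent.Fus.Alt

open Cfsg Equiv Equiv.Perm

variable {ι : Type*} {p : ℕ} [hp : Fact p.Prime]

/-- Translations in the blocks. -/
def tr : Multiplicative (ι → ZMod p) →* Perm (ι × ZMod p) where
  toFun μ := Equiv.prodCongrRight fun i => Equiv.addRight (μ.toAdd i)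
  map_one' := by ext ⟨i, t⟩ <;> simp
  map_mul' μ ν := by ext ⟨i, t⟩ <;> simp [add_assoc, add_comm (μ.toAdd i)]

@[simp] theorem tr_apply (μ : Multiplicative (ι → ZMod p)) (i : ι) (t : ZMod p) :
    tr μ (i, t) = (i, t + μ.toAdd i) := rfl

/-- Scalings in the blocks. -/
def dg : (ι → (ZMod p)ˣ) →* Perm (ι × ZMod p) where
  toFun l := Equiv.prodCongrRight fun i => (l i).mulLeft
  map_one' := by ext ⟨i, t⟩ <;> simp
  map_mul' μ ν := by ext ⟨i, t⟩ <;> simp [mul_assoc]

@[simp] theorem dg_apply (l : ι → (ZMod p)ˣ) (i : ι) (t : ZMod p) :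
    dg l (i, t) = (i, l i * t) := rfl

variable (p) in
/-- Permutations of the blocks. -/
def pm : Perm ι →* Perm (ι × ZMod p) where
  toFun σ := Equiv.prodCongrLeft fun _ => σ
  map_one' := by ext ⟨i, t⟩ <;> simp
  map_mul' μ ν := by ext ⟨i, t⟩ <;> simp

omit hp in
@[simp] theorem pm_apply (σ : Perm ι) (i : ι) (t : ZMod p) : pm p σ (i, t) = (σ i, t) := rfl

theorem tr_pow (μ : Multiplicative (ι → ZMod p)) : tr μ ^ p = 1 := by
  rw [← map_pow, show μ ^ p = 1 from ?_, map_one]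
  apply Multiplicative.toAdd.injective
  ext i
  simp

theorem isPGroup_range_tr : IsPGroup p (tr (ι := ι) (p := p)).range := by
  rintro ⟨_, μ, rfl⟩
  exact ⟨1, Subtype.ext (by simpa using tr_pow μ)⟩

/-- The `p`-cycle on the block `i`. -/
def cyc [DecidableEq ι] (i : ι) (k : ZMod p) : Perm (ι × ZMod p) :=
  tr (Multiplicative.ofAdd (Pi.single i k))

theorem cyc_mem [DecidableEq ι] (i : ι) (k : ZMod p) : cyc i k ∈ (tr (ι := ι) (p := p)).range :=
  ⟨_, rfl⟩

@[simp] theorem cyc_apply_self [DecidableEq ι] (i : ι) (k t : ZMod p) :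
    cyc i k (i, t) = (i, t + k) := by simp [cyc]

theorem cyc_apply_ne [DecidableEq ι] {i j : ι} (h : j ≠ i) (k t : ZMod p) :
    cyc i k (j, t) = (j, t) := by simp [cyc, h]

/-- Affine on each block. -/
def IsAff (x : Perm (ι × ZMod p)) : Prop :=
  ∀ i, ∃ j, ∃ l : (ZMod p)ˣ, ∃ m, ∀ t, x (i, t) = (j, l * t + m)

theorem IsAff.exists_eq [Finite ι] {x : Perm (ι × ZMod p)} (h : IsAff x) :
    ∃ μ σ l, x = tr μ * (pm p σ * dg l) := by
  choose f l m e using h
  have hf : Function.Injective f := fun i j hij => by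
    have : x (i, 0) = x (j, ((l j)⁻¹ : (ZMod p)ˣ) * (m i - m j)) := by
      rw [e, e, hij, Units.mul_inv_cancel_left, mul_zero, zero_add, sub_add_cancel]
    exact congrArg Prod.fst (x.injective this)
  let σ := Equiv.ofBijective f (Finite.injective_iff_bijective.1 hf)
  refine ⟨Multiplicative.ofAdd fun j => m (σ.symm j), σ, l, ?_⟩
  ext ⟨i, t⟩ : 1
  rw [e, Perm.mul_apply, Perm.mul_apply, dg_apply, pm_apply, tr_apply, toAdd_ofAdd,
    Equiv.symm_apply_apply]
  rfl

theorem pm_mem_normalizer [Finite ι] (σ : Perm ι) :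
    pm p σ ∈ Subgroup.normalizer ((tr (ι := ι) (p := p)).range : Set _) := by
  refine Subgroup.mem_normalizer_fintype ?_
  rintro _ ⟨μ, rfl⟩
  refine ⟨Multiplicative.ofAdd fun j => μ.toAdd (σ⁻¹ j), ?_⟩
  rw [eq_mul_inv_iff_mul_eq]
  ext ⟨i, t⟩ <;> simp

theorem dg_mem_normalizer [Finite ι] (l : ι → (ZMod p)ˣ) :
    dg l ∈ Subgroup.normalizer ((tr (ι := ι) (p := p)).range : Set _) := by
  refine Subgroup.mem_normalizer_fintype ?_
  rintro _ ⟨μ, rfl⟩
  refine ⟨Multiplicative.ofAdd fun j => l j * μ.toAdd j, ?_⟩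
  rw [eq_mul_inv_iff_mul_eq]
  ext ⟨i, t⟩ <;> simp [mul_add]

theorem IsAff.mem_normalizer [Finite ι] {x : Perm (ι × ZMod p)} (h : IsAff x) :
    x ∈ Subgroup.normalizer ((tr (ι := ι) (p := p)).range : Set _) := by
  obtain ⟨μ, σ, l, rfl⟩ := h.exists_eq
  exact mul_mem (Subgroup.le_normalizer ⟨μ, rfl⟩)
    (mul_mem (pm_mem_normalizer σ) (dg_mem_normalizer l))

theorem eq_add_mul_of_succ {f : ZMod p → ZMod p} {k : ZMod p} (h : ∀ t, f (t + 1) = f t + k)
    (t : ZMod p) : f t = k * t + f 0 := by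
  obtain ⟨n, rfl⟩ := ZMod.natCast_zmod_surjective t
  induction n with
  | zero => simp
  | succ n ih => rw [Nat.cast_succ, h, ih]; ring

/-- An element commuting with enough translations preserves a block and is a translation there. -/
theorem apply_eq_of_commute {g : Perm (ι × ZMod p)} {i : ι}
    (h : ∀ a, ∃ μ : Multiplicative (ι → ZMod p), μ.toAdd i = 1 ∧ (a ≠ i → μ.toAdd a = 0) ∧
      g * tr μ = tr μ * g) : ∃ m, ∀ t, g (i, t) = (i, t + m) := by
  have h1 : ∀ t, (g (i, t)).1 = i := fun t => by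
    by_contra ha
    obtain ⟨μ, h1, h2, e⟩ := h (g (i, t)).1
    have h3 := congrArg (fun y => y (i, t)) e
    simp only [Perm.mul_apply, tr_apply, h1] at h3
    rw [show tr μ (g (i, t)) = g (i, t) by rw [← Prod.mk.eta (p := g (i, t)), tr_apply, h2 ha]; simp]
      at h3
    simpa using g.injective h3
  obtain ⟨μ, h2, -, e⟩ := h i
  refine ⟨(g (i, 0)).2, fun t => Prod.ext (h1 t) ?_⟩
  have := eq_add_mul_of_succ (f := fun t => (g (i, t)).2) (k := 1) (fun t => ?_) t
  · simpa using this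
  · have h3 := congrArg (fun y => (y (i, t)).2) e
    simp only [Perm.mul_apply, tr_apply, h2] at h3
    rw [h3, ← Prod.mk.eta (p := g (i, t)), tr_apply, h1, h2]

theorem mem_range_tr {g : Perm (ι × ZMod p)} (h : ∀ i, ∃ m, ∀ t, g (i, t) = (i, t + m)) :
    g ∈ (tr (ι := ι) (p := p)).range := by
  choose m e using h
  exact ⟨Multiplicative.ofAdd m, by ext ⟨i, t⟩ : 1; rw [e]; rfl⟩

variable [Fintype ι] [DecidableEq ι]

theorem sign_pm (σ : Perm ι) : sign (pm p σ) = sign σ ^ p := by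
  have := sign_prodCongrLeft (α := ZMod p) fun _ => σ
  rw [Finset.prod_const, Finset.card_univ, ZMod.card] at this
  exact this

theorem cyc_mul_cyc_mem_alt (i j : ι) (k : ZMod p) :
    cyc i k * cyc j k ∈ alternatingGroup (ι × ZMod p) := by
  have : cyc j k = pm p (swap i j) * cyc i k * (pm p (swap i j))⁻¹ := by
    rw [eq_mul_inv_iff_mul_eq]
    ext ⟨a, t⟩ : 1
    by_cases h : a = i
    · subst h; simp
    · rw [Perm.mul_apply, Perm.mul_apply, cyc_apply_ne h, pm_apply, cyc_apply_ne]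
      rwa [Ne, swap_apply_eq_iff, swap_apply_right]
  rw [mem_alternatingGroup, map_mul, this, map_mul, map_mul, map_inv, mul_inv_cancel_comm,
    Int.units_mul_self]

theorem exists_ne_ne (h3 : 3 ≤ Fintype.card ι) (a b : ι) : ∃ k, k ≠ a ∧ k ≠ b := by
  obtain ⟨k, -, hk⟩ := Finset.exists_mem_notMem_of_card_lt_card
    (s := ({a, b} : Finset ι)) (t := Finset.univ)
    (lt_of_le_of_lt Finset.card_le_two (by rw [Finset.card_univ]; omega))
  exact ⟨k, by simpa using hk⟩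

/-- The centralizer of the even part of the base group. -/
theorem mem_range_tr_of_commute (h3 : 3 ≤ Fintype.card ι) {g : Perm (ι × ZMod p)}
    (h : ∀ x ∈ (tr (ι := ι) (p := p)).range ⊓ alternatingGroup _, g * x = x * g) :
    g ∈ (tr (ι := ι) (p := p)).range := by
  refine mem_range_tr fun i => apply_eq_of_commute fun a => ?_
  obtain ⟨k, h1, h2⟩ := exists_ne_ne h3 i a
  refine ⟨Multiplicative.ofAdd (Pi.single i 1) * Multiplicative.ofAdd (Pi.single k 1),
    by simp [h1.symm], fun ha => by simp [ha, h2.symm], h _ ⟨⟨_, rfl⟩, ?_⟩⟩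
  rw [map_mul]
  exact cyc_mul_cyc_mem_alt i k 1

theorem exists_moves (h3 : 3 ≤ Fintype.card ι) (u : ι × ZMod p) :
    ∃ r ∈ (tr (ι := ι) (p := p)).range ⊓ alternatingGroup _, r u ≠ u := by
  obtain ⟨i, t⟩ := u
  obtain ⟨k, h1, -⟩ := exists_ne_ne h3 i i
  refine ⟨cyc i 1 * cyc k 1, ⟨mul_mem (cyc_mem _ _) (cyc_mem _ _), cyc_mul_cyc_mem_alt i k 1⟩, ?_⟩
  rw [Perm.mul_apply, cyc_apply_ne h1.symm]
  simp

theorem eq_one_of_card_lt {Ω : Type*} [Fintype Ω] [DecidableEq Ω] {g : Perm Ω} {k : ℕ}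
    (hg : g ^ p ^ k = 1) (h : g.support.card < p) : g = 1 := by
  by_contra h1
  obtain ⟨n, hn⟩ := Multiset.card_pos_iff_exists_mem.1 (card_cycleType_pos.2 h1)
  obtain ⟨j, -, rfl⟩ := (Nat.dvd_prime_pow hp.out).1
    ((dvd_of_mem_cycleType hn).trans (orderOf_dvd_of_pow_eq_one hg))
  have h2 := two_le_of_mem_cycleType hn
  have h3 := le_card_support_of_mem_cycleType hn
  have h4 : p ≤ p ^ j := Nat.le_self_pow (by rintro rfl; simp at h2) p
  omega

/-- The block `j`. -/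
def blk (p : ℕ) [Fact p.Prime] (j : ι) : Finset (ι × ZMod p) :=
  Finset.univ.map ⟨fun t => (j, t), fun _ _ h => congrArg Prod.snd h⟩

omit [Fintype ι] [DecidableEq ι] in
theorem mem_blk {j : ι} {u : ι × ZMod p} : u ∈ blk p j ↔ u.1 = j := by
  rw [blk, Finset.mem_map]
  exact ⟨by rintro ⟨t, -, rfl⟩; rfl, by rintro rfl; exact ⟨u.2, Finset.mem_univ _, rfl⟩⟩

omit [Fintype ι] [DecidableEq ι] in
theorem card_blk (j : ι) : (blk p j).card = p := by simp [blk]

/-- For odd `p`, the normalizer of a `p`-group containing the base group is block-affine. -/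
theorem isAff_of_odd (h2 : p ≠ 2) {S : Subgroup (Perm (ι × ZMod p))} (hS : IsPGroup p S)
    (hV : (tr (ι := ι) (p := p)).range ≤ S) {x : Perm (ι × ZMod p)}
    (hx : ∀ s ∈ S, x * s * x⁻¹ ∈ S) : IsAff x := by
  intro i
  obtain ⟨⟨j, s⟩, hu⟩ : ∃ u, x (i, 0) = u := ⟨_, rfl⟩
  have hd := hx _ (hV (cyc_mem i 1))
  set d := x * cyc i 1 * x⁻¹ with hd'
  have hdx : ∀ t, d (x (i, t)) = x (i, t + 1) := fun t => by simp [hd']
  have hdf : ∀ v, v ∉ (blk p i).image x → d v = v := fun v hv => by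
    obtain ⟨⟨a, t⟩, rfl⟩ := x.surjective v
    have : a ≠ i := fun e => hv (Finset.mem_image_of_mem _ (mem_blk.2 e))
    simp [hd', cyc_apply_ne this]
  have h1 : ∀ t, (x (i, t)).1 = j := by
    let U := (blk p i).image x ∪ blk p j
    let Q : Subgroup (Perm (ι × ZMod p)) := S ⊓ fixingSubgroup _ ((U : Set (ι × ZMod p))ᶜ)
    have hQ : IsPGroup p Q := hS.to_le inf_le_left
    have hdQ : d ∈ Q := ⟨hd, (mem_fixingSubgroup_iff _).2 fun v hv =>
      hdf v fun h => hv (Finset.mem_union_left _ h)⟩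
    have hcQ : ∀ k, cyc j k ∈ Q := fun k => ⟨hV (cyc_mem j k), (mem_fixingSubgroup_iff _).2
      fun v hv => cyc_apply_ne (fun h => hv (Finset.mem_union_right _ (mem_blk.2 h))) k v.2⟩
    obtain ⟨n, hn⟩ := hQ.card_orbit (j, s)
    have hsub : MulAction.orbit Q (j, s) ⊆ U := by
      rintro _ ⟨g, rfl⟩
      by_contra h
      have h3 := (mem_fixingSubgroup_iff _).1 g.2.2 _ h
      exact h ((g.1.injective h3).symm ▸ Finset.mem_union_right _ (mem_blk.2 rfl))
    have hsup : (blk p j : Set _) ⊆ MulAction.orbit Q (j, s) := by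
      rintro ⟨a, t⟩ ha
      obtain rfl : a = j := mem_blk.1 ha
      exact ⟨⟨_, hcQ (t - s)⟩, by simp [Subgroup.smul_def]⟩
    have c1 : p ^ n ≤ 2 * p := by
      rw [← hn, Nat.card_coe_set_eq]
      refine (Set.ncard_le_ncard hsub).trans ?_
      rw [Set.ncard_coe_finset]
      refine (Finset.card_union_le _ _).trans ?_
      have := Finset.card_image_le (s := blk p i) (f := x)
      rw [card_blk] at this ⊢
      omega
    have c2 : p ^ n ≤ p := by
      by_contra h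
      have h3 : 1 < n := (Nat.pow_lt_pow_iff_right hp.out.one_lt).1 (by rw [pow_one]; omega)
      have h4 : p ^ 2 ≤ p ^ n := Nat.pow_le_pow_right hp.out.pos h3
      have h5 := hp.out.two_le
      nlinarith [lt_of_le_of_ne h5 h2.symm]
    have heq := Set.eq_of_subset_of_ncard_le hsup (by
      rw [Set.ncard_coe_finset, card_blk, ← Nat.card_coe_set_eq, hn]; exact c2)
    intro t
    obtain ⟨m, rfl⟩ := ZMod.natCast_zmod_surjective t
    rw [← mem_blk, ← Finset.mem_coe, heq]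
    induction m with
    | zero => rw [Nat.cast_zero, hu]; exact MulAction.mem_orbit_self _
    | succ m ih =>
      rw [Nat.cast_succ, ← hdx]
      exact MulAction.mem_orbit_of_mem_orbit (⟨d, hdQ⟩ : Q) ih
  let k := (x (i, 1)).2 - s
  have h3 : (cyc j k)⁻¹ * d = 1 := by
    obtain ⟨m, hm⟩ := hS ⟨_, mul_mem (inv_mem (hV (cyc_mem j k))) hd⟩
    refine eq_one_of_card_lt (congrArg Subtype.val hm) ?_
    refine lt_of_le_of_lt (Finset.card_le_card (t := (blk p j).erase (j, s)) fun v hv => ?_) ?_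
    · rw [mem_support, Perm.mul_apply, Ne, Perm.inv_eq_iff_eq] at hv
      refine Finset.mem_erase.2 ⟨?_, ?_⟩
      · rintro rfl
        refine hv ?_
        rw [cyc_apply_self, ← hu, hdx, zero_add]
        exact Prod.ext (h1 1) (by simp [k])
      · by_contra h
        refine hv ?_
        rw [hdf v, ← Prod.mk.eta (p := v), cyc_apply_ne (mt mem_blk.2 h)]
        intro h4
        obtain ⟨⟨a, t⟩, ha, rfl⟩ := Finset.mem_image.1 h4
        obtain rfl : a = i := mem_blk.1 ha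
        exact h (mem_blk.2 (h1 t))
    · rw [Finset.card_erase_of_mem (mem_blk (u := (j, s)).2 rfl), card_blk]
      have := hp.out.pos
      omega
  rw [inv_mul_eq_one] at h3
  have h4 := eq_add_mul_of_succ (f := fun t => (x (i, t)).2) (k := k) fun t => by
    rw [← hdx, ← h3, ← Prod.mk.eta (p := x (i, t)), h1, cyc_apply_self]
  have h5 : k ≠ 0 := fun e => by
    have : x (i, 1) = x (i, 0) := Prod.ext ((h1 1).trans (h1 0).symm) (by
      rw [hu]; exact sub_eq_zero.1 e)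
    simpa using x.injective this
  exact ⟨j, Units.mk0 k h5, _, fun t => Prod.ext (h1 t) (h4 t)⟩

omit [Fintype ι] in
theorem cyc_eq_swap (i : ι) (s : ZMod 2) : cyc i (1 : ZMod 2) = swap (i, s) (i, s + 1) := by
  ext ⟨a, t⟩ : 1
  by_cases h : a = i
  · subst h
    rw [cyc_apply_self]
    obtain rfl | rfl : t = s ∨ t = s + 1 := by revert s t; decide
    · simp
    · rw [swap_apply_right, show s + 1 + 1 = s by revert s; decide]
  · rw [cyc_apply_ne h, swap_apply_of_ne_of_ne] <;> exact fun e => h (congrArg Prod.fst e)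

/-- For `p = 2`: the normalizer of a `2`-group containing the even part of the base group and
normalized by the base group is block-affine. -/
theorem isAff_of_two (h3 : 3 ≤ Fintype.card ι) {S : Subgroup (Perm (ι × ZMod 2))}
    (hS : IsPGroup 2 S) (hV : (tr (ι := ι) (p := 2)).range ⊓ alternatingGroup _ ≤ S)
    (hN : ∀ v ∈ (tr (ι := ι) (p := 2)).range, ∀ s ∈ S, v * s * v⁻¹ ∈ S) {x : Perm (ι × ZMod 2)}
    (hx : ∀ s ∈ S, x * s * x⁻¹ ∈ S) (hx' : ∀ s ∈ S, x⁻¹ * s * x ∈ S) : IsAff x := by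
  intro i
  obtain ⟨⟨a, s⟩, hu⟩ : ∃ u, x (i, 0) = u := ⟨_, rfl⟩
  obtain ⟨⟨b, s'⟩, hv⟩ : ∃ u, x (i, 1) = u := ⟨_, rfl⟩
  have huv : (a, s) ≠ (b, s') := fun e => by simpa using x.injective (hu.trans (e.trans hv.symm))
  by_cases hab : a = b
  · subst hab
    refine ⟨a, 1, s, fun t => ?_⟩
    obtain rfl | rfl : t = 0 ∨ t = 1 := by revert t; decide
    · simpa using hu
    · have : s ≠ s' := fun e => huv (by rw [e])
      rw [hv, (by decide : ∀ s s' : ZMod 2, s ≠ s' → s' = (1 : (ZMod 2)ˣ) * 1 + s) s s' this]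
  exfalso
  obtain ⟨k, hka, hkb⟩ := exists_ne_ne h3 a b
  have ht : x * cyc i 1 * x⁻¹ = swap (a, s) (b, s') := by
    rw [cyc_eq_swap i 0, ← swap_apply_apply, zero_add, hu, hv]
  have h1 : ∀ c, cyc c 1 * cyc k 1 ∈ S := fun c =>
    hV ⟨mul_mem (cyc_mem _ _) (cyc_mem _ _), cyc_mul_cyc_mem_alt c k 1⟩
  have h2 := hx _ (hN _ (cyc_mem i 1) _ (hx' _ (h1 a)))
  have e1 : x * (cyc i 1 * (x⁻¹ * (cyc a 1 * cyc k 1) * x) * (cyc i 1)⁻¹) * x⁻¹ =
      (x * cyc i 1 * x⁻¹) * cyc a 1 * (x * cyc i 1 * x⁻¹)⁻¹ *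
        ((x * cyc i 1 * x⁻¹) * cyc k 1 * (x * cyc i 1 * x⁻¹)⁻¹) := by group
  have n1 : ∀ {c d : ι} (t t' : ZMod 2), c ≠ d → (c, t) ≠ (d, t') := fun _ _ h e =>
    h (congrArg Prod.fst e)
  have n2 : ∀ (c : ι) (t : ZMod 2), (c, t + 1) ≠ (c, t) := fun c t e => by
    simpa using congrArg Prod.snd e
  rw [e1, ht, cyc_eq_swap a s, cyc_eq_swap k 0, ← swap_apply_apply, ← swap_apply_apply,
    swap_apply_left, swap_apply_of_ne_of_ne (n2 a s) (n1 _ _ hab),
    swap_apply_of_ne_of_ne (n1 _ _ hka) (n1 _ _ hkb),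
    swap_apply_of_ne_of_ne (n1 _ _ hka) (n1 _ _ hkb)] at h2
  have h4 := S.mul_mem h2 (S.inv_mem (h1 b))
  rw [cyc_eq_swap b s', cyc_eq_swap k 0, mul_inv_rev, mul_assoc, mul_inv_cancel_left, swap_inv]
    at h4
  obtain ⟨m, hm⟩ := hS ⟨_, h4⟩
  have h5 := orderOf_dvd_of_pow_eq_one (congrArg Subtype.val hm)
  rw [(isThreeCycle_swap_mul_swap_same (n1 _ _ (Ne.symm hab)) (n2 b s').symm
    (n1 _ _ hab)).orderOf] at h5
  exact absurd (Nat.prime_three.dvd_of_dvd_pow h5) (by norm_num)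

theorem alt_le_of_pow (h2 : p ≠ 2) (hι : p ≤ Fintype.card ι) {L : Subgroup (Perm ι)}
    (h : ∀ τ : Perm ι, τ ^ p = 1 → τ ∈ L) : alternatingGroup ι ≤ L := by
  by_cases h3 : p = 3
  · rw [← closure_three_cycles_eq_alternating, Subgroup.closure_le]
    intro τ hτ
    exact h τ (by rw [h3, ← IsThreeCycle.orderOf hτ, pow_orderOf_eq_one])
  have h5 := hp.out.five_le_of_ne_two_of_ne_three h2 h3
  obtain ⟨c, hc⟩ := exists_prime_orderOf_dvd_card' (G := Perm ι) p (by
    rw [Nat.card_perm, Nat.card_eq_fintype_card]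
    exact Nat.dvd_factorial hp.out.pos hι)
  refine (alternatingGroup_le_of_normal (N := Subgroup.normalClosure {c})
    (by rw [Nat.card_eq_fintype_card]; omega) ?_).trans ((Subgroup.closure_le _).2 ?_)
  · refine (Subgroup.nontrivial_iff_exists_ne_one _).2
      ⟨c, Subgroup.subset_normalClosure rfl, ?_⟩
    rintro rfl
    rw [orderOf_one] at hc
    omega
  · intro τ hτ
    obtain ⟨_, rfl, h1⟩ := Group.mem_conjugatesOfSet_iff.1 hτ
    obtain ⟨g, rfl⟩ := _root_.isConj_iff.1 h1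
    exact h _ (by rw [conj_pow, ← hc, pow_orderOf_eq_one]; simp)

theorem mem_of_isAff_odd (h2 : p ≠ 2) (hι : p ≤ Fintype.card ι) {K : Subgroup (Perm (ι × ZMod p))}
    (hK : K ≤ alternatingGroup _)
    (hpp : ∀ g ∈ Subgroup.normalizer ((tr (ι := ι) (p := p)).range : Set _), g ^ p = 1 → g ∈ K)
    (hg : ∀ a : (ZMod p)ˣ, ∃ σ l, ∏ i, l i = a ∧ pm p σ * dg l ∈ K) {x : Perm (ι × ZMod p)}
    (hx : IsAff x) (hxA : x ∈ alternatingGroup _) : x ∈ K := by
  have hB : ∀ l, ∀ τ ∈ alternatingGroup ι, dg l * pm p τ * (dg l)⁻¹ ∈ K := fun l =>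
    alt_le_of_pow h2 hι (L := K.comap ((MulAut.conj (dg l)).toMonoidHom.comp (pm p))) fun τ hτ =>
      hpp _ (mul_mem (mul_mem (dg_mem_normalizer l) (pm_mem_normalizer τ))
        (inv_mem (dg_mem_normalizer l))) (by
          change (dg l * pm p τ * (dg l)⁻¹) ^ p = 1
          rw [conj_pow, ← map_pow, hτ]; simp)
  have hB1 : ∀ τ ∈ alternatingGroup ι, pm p τ ∈ K := fun τ hτ => by simpa using hB 1 τ hτ
  have h3 : 3 ≤ p := lt_of_le_of_ne hp.out.two_le h2.symm
  have hA1 : ∀ i j a, dg (Pi.mulSingle i a * (Pi.mulSingle j a)⁻¹) ∈ K := fun i j a => by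
    have := alternatingGroup.isPretransitive_of_three_le_card ι
      (by rw [Nat.card_eq_fintype_card]; omega)
    obtain ⟨τ, rfl⟩ := MulAction.exists_smul_eq (alternatingGroup ι) i j
    convert K.mul_mem (hB (Pi.mulSingle i a) τ τ.2) (K.inv_mem (hB1 τ τ.2)) using 1
    rw [← map_inv, ← map_inv]
    ext ⟨c, t⟩ : 1
    simp only [Perm.mul_apply, dg_apply, pm_apply, Pi.mul_apply, Pi.inv_apply, Units.val_mul,
      show ∀ y, τ.1 (τ.1⁻¹ y) = y from τ.1.apply_symm_apply, mul_assoc, Pi.mulSingle_apply,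
      Subgroup.smul_def, Perm.smul_def, Perm.inv_eq_iff_eq]
  have hA : ∀ l : ι → (ZMod p)ˣ, ∏ i, l i = 1 → dg l ∈ K := fun l hl => by
    obtain ⟨j⟩ : Nonempty ι := Fintype.card_pos_iff.1 (by omega)
    have e : l = ∏ i, (Pi.mulSingle i (l i) * (Pi.mulSingle j (l i))⁻¹) := by
      rw [Finset.prod_mul_distrib, Finset.univ_prod_mulSingle, Finset.prod_inv_distrib]
      have := map_prod (MonoidHom.mulSingle (fun _ : ι => (ZMod p)ˣ) j) l Finset.univ
      simp only [MonoidHom.mulSingle_apply] at this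
      rw [← this, hl]; simp
    rw [e]
    exact (K.comap dg).prod_mem fun i _ => hA1 i j (l i)
  obtain ⟨μ, σ, l, rfl⟩ := hx.exists_eq
  obtain ⟨σ', l', h4, h5⟩ := hg (∏ i, l i)
  have h6 := hpp _ (Subgroup.le_normalizer ⟨μ, rfl⟩) (tr_pow μ)
  have h7 := K.mul_mem h5 (hA (l'⁻¹ * l) (by
    simp [Finset.prod_mul_distrib, h4]))
  have e : pm p σ * dg l = pm p (σ * σ'⁻¹) * (pm p σ' * dg l' * dg (l'⁻¹ * l)) := by
    simp only [map_mul, map_inv]; group
  rw [e] at hxA ⊢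
  refine K.mul_mem h6 (K.mul_mem (hB1 _ ?_) h7)
  rw [(alternatingGroup _).mul_mem_cancel_left (hK h6),
    (alternatingGroup _).mul_mem_cancel_right (hK h7), mem_alternatingGroup, sign_pm] at hxA
  rcases Int.units_eq_one_or (sign (σ * σ'⁻¹)) with h | h
  · exact h
  · rw [h, (hp.out.odd_of_ne_two h2).neg_one_pow] at hxA
    exact absurd hxA (by decide)

theorem mem_of_isAff_two {K : Subgroup (Perm (ι × ZMod 2))}
    (hpp : ∀ g ∈ Subgroup.normalizer ((tr (ι := ι) (p := 2)).range : Set _),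
      g ∈ alternatingGroup _ → g ^ 2 = 1 → g ∈ K) {x : Perm (ι × ZMod 2)}
    (hx : IsAff x) (hxA : x ∈ alternatingGroup _) : x ∈ K := by
  have h1 : ∀ τ : Perm ι, pm 2 τ ∈ alternatingGroup _ := fun τ => by
    rw [mem_alternatingGroup, sign_pm, pow_two, Int.units_mul_self]
  obtain ⟨μ, σ, l, rfl⟩ := hx.exists_eq
  rw [Subsingleton.elim l 1, map_one, mul_one] at hxA ⊢
  rw [(alternatingGroup _).mul_mem_cancel_right (h1 σ)] at hxA
  refine K.mul_mem (hpp _ (Subgroup.le_normalizer ⟨μ, rfl⟩) hxA (tr_pow μ)) ?_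
  have : ⊤ ≤ K.comap (pm 2) := by
    rw [← closure_isSwap, Subgroup.closure_le]
    rintro _ ⟨a, b, -, rfl⟩
    exact hpp _ (pm_mem_normalizer _) (h1 _) (by rw [← map_pow, pow_two, swap_mul_self, map_one])
  exact this (Subgroup.mem_top σ)

end Cfsg.Agent.Fus.Alt
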