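import Cfsg.Agent.Fus.LinP

/-!
# Sylow `p`-subgroups of symplectic and unitary groups in characteristic `p`
-/

set_option autoImplicit false
set_option linter.unusedSectionVars false

namespace Cfsg.Agent.Fus

open Cfsg Cfsg.FusionSystem Module Cfsg.Agent.Class.Max Cfsg.Agent.Class.Max.Fm

variable {K V : Type*} [Field K] [AddCommGroup V] [Module K V] {p : ℕ} [hp : Fact p.Prime]
  [CharP K p] {Φ : Fm K V}

omit [CharP K p] in
theorem inv_mul_app_eq {q g : V ≃ₗ[K] V} {x : V} (h : q x = g x) : (q⁻¹ * g) x = x :=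
  q.injective (by rw [mul_app, app_inv_app, h])

theorem iso_mem_perp {g : V ≃ₗ[K] V} (hg : g ∈ Φ.Iso) {Y : Submodule K V} (h : ∀ y ∈ Y, g y = y)
    (x : V) : g x - x ∈ Φ.perp Y := fun y hy => by
  rw [map_sub, sub_eq_zero]
  conv_lhs => rw [← h y hy, Iso.B hg]

variable (Φ) in
/-- The unipotent radical of the stabiliser of a totally singular subspace. -/
def radF (Y : Submodule K V) : Subgroup (V ≃ₗ[K] V) where
  carrier := {g | g ∈ Φ.Iso ∧ (∀ y ∈ Y, g y = y) ∧ ∀ w ∈ Φ.perp Y, g w - w ∈ Y}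
  one_mem' := ⟨Φ.Iso.one_mem, fun _ _ => rfl, fun w _ => by simp [one_app]⟩
  mul_mem' {a b} ha hb := ⟨Φ.Iso.mul_mem ha.1 hb.1, fun y hy => by
    rw [mul_app, hb.2.1 y hy, ha.2.1 y hy], fun w hw => by
      have h1 : b w ∈ Φ.perp Y := by
        simpa using (Φ.perp Y).add_mem (iso_mem_perp hb.1 hb.2.1 w) hw
      simpa [mul_app] using Y.add_mem (ha.2.2 _ h1) (hb.2.2 w hw)⟩
  inv_mem' {a} ha := ⟨Φ.Iso.inv_mem ha.1, fun y hy => a.injective (by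
    rw [app_inv_app, ha.2.1 y hy]), fun w hw => by
      have h1 : a⁻¹ w ∈ Φ.perp Y := fun y hy => by rw [Iso.B_inv ha.1, ha.2.1 y hy, hw y hy]
      simpa using Y.neg_mem (ha.2.2 _ h1)⟩

theorem isPGroup_radF (Y : Submodule K V) : IsPGroup p (radF Φ Y) := fun g =>
  ⟨2, Subtype.ext (pow_eq_one_of_unip (iso_mem_perp g.2.1 g.2.2.1) g.2.2.2 g.2.2.1)⟩

theorem mem_normalizer_radF {G : Subgroup (V ≃ₗ[K] V)} (hG : G ≤ Φ.Iso) {Y : Submodule K V}
    {g : V ≃ₗ[K] V} (hg : g ∈ G) (hY : g ∈ Class.Max.stab Y) :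
    g ∈ normalizerIn G (radF Φ Y ⊓ G) := by
  have key : ∀ g ∈ G, g ∈ Class.Max.stab Y → ∀ x ∈ radF Φ Y ⊓ G, g * x * g⁻¹ ∈ radF Φ Y ⊓ G :=
    fun g hg hY x hx => ⟨⟨Φ.Iso.mul_mem (Φ.Iso.mul_mem (hG hg) hx.1.1) (Φ.Iso.inv_mem (hG hg)),
      fun v hv => by
        rw [mul_app, mul_app, hx.1.2.1 _ (stab_apply (Subgroup.inv_mem _ hY) hv), app_inv_app],
      fun v hv => by
        have := stab_apply hY (hx.1.2.2 _
          (stab_apply (Subgroup.inv_mem _ (Iso.stab_perp (hG hg) hY)) hv))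
        rwa [map_sub, app_inv_app] at this⟩, G.mul_mem (G.mul_mem hg hx.2) (G.inv_mem hg)⟩
  refine ⟨hg, fun x => ⟨key g hg hY x, fun h => ?_⟩⟩
  simpa [mul_assoc] using key _ (G.inv_mem hg) (Subgroup.inv_mem _ hY) _ h

theorem eich_mem_radF {Y : Submodule K V} (hY : Φ.TS Y) {y w : V} {c : K} (hv : Φ.Valid y w c)
    (hy : y ∈ Y) (hw : w ∈ Φ.perp Y) : hv.eich ∈ radF Φ Y :=
  ⟨hv.mem_Iso hv.eich_apply, fun x hx => ef_apply_of_perp (hY.2 y hy x hx) (Φ.perp_symm (hw x hx)),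
    fun x hx => by
      rw [hv.eich_apply, ef_apply_of_perp' (hx y hy), sub_sub_cancel_left]
      exact Y.neg_mem (Y.smul_mem _ hy)⟩

theorem ts_line {e : V} (he : Φ.Q e = 0) : Φ.TS (K ∙ e) :=
  ts_span (by simpa using he) (by simpa using Φ.B_self he)

theorem eich_pow {e w : V} {c : K} (hv : Φ.Valid e w c) : ∃ k, hv.eich ^ p ^ k = 1 :=
  let ⟨k, hk⟩ := isPGroup_radF (p := p) _ ⟨_, eich_mem_radF (ts_line hv.sing) hv
    (Submodule.mem_span_singleton_self e) (Φ.mem_perp_span_singleton.2 hv.perp)⟩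
  ⟨k, congrArg Subtype.val hk⟩

theorem valid_lam {e : V} (he : Φ.Q e = 0) {c : K} (hc : Φ.π c = 0) : Φ.Valid e 0 c :=
  ⟨he, map_zero _, by rw [hc, Φ.Q_zero]⟩

theorem ef_lam (e : V) (c : K) (x : V) : Φ.ef e 0 c x = x - (Φ.ε * c * Φ.B e x) • e := by
  simp [ef, mul_assoc]

theorem ef_add_smul (e w : V) (c l : K) (x : V) :
    Φ.ef e (w + l • e) c x = Φ.ef e w (c + Φ.σ l - Φ.ε * l) x := by
  simp only [ef, Φ.bsimp]
  have : Φ.B e x • l • e = (Φ.ε * (Φ.ε * l * Φ.B e x)) • e := by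
    rw [smul_smul, ← mul_assoc, ← mul_assoc, Φ.eps_sq, one_mul, mul_comm]
  rw [smul_add, this]
  module

theorem pCent_radF (hΛ : ∃ c, c ≠ 0 ∧ Φ.π c = 0) {G : Subgroup (V ≃ₗ[K] V)} (h1 : Φ.EG ≤ G)
    (h2 : G ≤ Φ.Iso) {Y : Submodule K V} (hY : Φ.TS Y) (h0 : Y ≠ ⊥) :
    PCent p G (radF Φ Y ⊓ G) := by
  rintro g hg ⟨k, hk⟩ hc
  obtain ⟨c₀, hc₀, hπ⟩ := hΛ
  have key : ∀ y ∈ Y, ∀ w ∈ Φ.perp Y, ∀ c, Φ.Valid y w c → ∀ x,
      Φ.ef (g y) (g w) c x = Φ.ef y w c x := fun y hy w hw c hv x => by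
    have := congrArg (fun a : V ≃ₗ[K] V => a (g⁻¹ x))
      (hc _ ⟨eich_mem_radF hY hv hy hw, h1 hv.eich_mem⟩)
    simpa only [mul_app, hv.eich_apply, Iso.ef (h2 hg), app_inv_app] using this
  have h3 : ∀ y ∈ Y, g y = y := fun y hy => by
    by_cases hy0 : y = 0
    · rw [hy0, map_zero]
    obtain ⟨x, hx⟩ := Φ.exists_B_ne hy0
    have h4 := key y hy 0 (zero_mem _) c₀ (valid_lam (hY.1 y hy) hπ) (g x)
    rw [map_zero, ef_lam, ef_lam, Iso.B (h2 hg), sub_right_inj, ← eq_inv_smul_iff₀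
      (mul_ne_zero (mul_ne_zero Φ.eps_ne hc₀) hx), smul_smul] at h4
    rw [h4, eigen_eq_one hk hy0 h4, one_smul]
  refine ⟨⟨h2 hg, h3, fun w hw => ?_⟩, hg⟩
  obtain ⟨y, hy, hy0⟩ := Submodule.exists_mem_ne_zero_of_ne_bot h0
  obtain ⟨c, hv⟩ := exists_valid (hY.1 y hy) (hw y hy)
  obtain ⟨x, hx⟩ := Φ.exists_B_ne hy0
  have h4 := key y hy w hw c hv x
  rw [h3 y hy, ef, ef] at h4
  rw [← Y.smul_mem_iff hx]
  have : Φ.B y x • (g w - w) = (Φ.ε * (Φ.B (g w) x - Φ.B w x)) • y := by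
    linear_combination (norm := module) h4
  rw [this]
  exact Y.smul_mem _ hy

theorem exists_ef_of_fix {e f : V} (he : Φ.Q e = 0) (hf : Φ.B e f = 1) {g : V ≃ₗ[K] V}
    (hg : g ∈ Φ.Iso) (hge : g e = e) :
    ∃ c, ∃ hv : Φ.Valid e (g f - f) c, hv.eich f = g f ∧ hv.eich e = e := by
  obtain ⟨c, hv, h⟩ := exists_ef_eq (x := f) (y := g f) he (by simp [hf])
    (by conv_lhs => rw [← hge, Iso.B hg]) (Iso.Q hg f)
  rw [hf, inv_one, one_smul] at hv h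
  exact ⟨c, hv, h, hv.ef_self⟩

theorem eq_ef_of_mem_radF {e f : V} (he : Φ.Q e = 0) (hf : Φ.B e f = 1) {g : V ≃ₗ[K] V}
    (hg : g ∈ radF Φ (K ∙ e)) : ∃ c, Φ.Valid e (g f - f) c ∧ ∀ x, g x = Φ.ef e (g f - f) c x := by
  have hge := hg.2.1 e (Submodule.mem_span_singleton_self e)
  obtain ⟨c, hv, h1, -⟩ := exists_ef_of_fix he hf hg.1 hge
  refine ⟨c, hv, fun x => ?_⟩
  have hq := eich_mem_radF (ts_line he) hv (Submodule.mem_span_singleton_self e)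
    (Φ.mem_perp_span_singleton.2 hv.perp)
  rw [← hv.eich_apply]
  have h2 : x - Φ.B e x • f ∈ Φ.perp (K ∙ e) := Φ.mem_perp_span_singleton.2 (by simp [hf])
  obtain ⟨a, ha⟩ := Submodule.mem_span_singleton.1 (hg.2.2 _ h2)
  obtain ⟨b, hb⟩ := Submodule.mem_span_singleton.1 (hq.2.2 _ h2)
  have h3 := Iso.B hg.1 f (x - Φ.B e x • f)
  have h4 := Iso.B hq.1 f (x - Φ.B e x • f)
  rw [eq_sub_iff_add_eq] at ha hb
  have h5 : Φ.B (g f) e ≠ 0 := by
    conv_lhs => rw [← hge, Iso.B hg.1]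
    exact Φ.ne_symm (by simp [hf])
  rw [h1, ← hb, ← h3, ← ha, map_add, map_add, add_left_inj, map_smul, map_smul] at h4
  obtain rfl : b = a := smul_left_injective K h5 h4
  rw [← sub_add_cancel x (Φ.B e x • f), map_add, map_add, ← ha, ← hb, map_smul, map_smul, h1]

/-- Fixed isotropic vectors modulo an invariant subspace `X` perpendicular to `U`. -/
theorem exists_isotropic_fixed_mod [Finite V] {S : Subgroup (V ≃ₗ[K] V)} (hS : IsPGroup p S)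
    (hI : S ≤ Φ.Iso) {X U Z : Submodule K V} (hXU : X ≤ U) (hp : ∀ x ∈ X, ∀ u ∈ U, Φ.B x u = 0)
    (hX : ∀ g ∈ S, ∀ x ∈ X, g x ∈ X) (hU : ∀ g ∈ S, ∀ x ∈ U, g x ∈ U) (hXZ : X ≤ Z)
    (hZ : ∀ g ∈ S, ∀ u ∈ U, g u - u ∈ Z) (h : ∃ g ∈ S, ∃ u ∈ U, g u - u ∉ X) :
    ∃ v ∈ Z, v ∉ X ∧ Φ.B v v = 0 ∧ ∀ g ∈ S, g v - v ∈ X := by
  let Y := X ⊔ Submodule.span K {y | ∃ g ∈ S, ∃ u ∈ U, g u - u = y}
  have hY : ∀ g ∈ S, ∀ u ∈ U, g u - u ∈ Y := fun g hg u hu =>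
    Submodule.mem_sup_right (Submodule.subset_span ⟨g, hg, u, hu, rfl⟩)
  have hle : ∀ Z : Submodule K V, X ≤ Z → (∀ g ∈ S, ∀ u ∈ U, g u - u ∈ Z) → Y ≤ Z :=
    fun Z h1 h2 => sup_le h1 (Submodule.span_le.2 (by
      rintro _ ⟨g, hg, u, hu, rfl⟩; exact h2 g hg u hu))
  have hYU : Y ≤ U := hle U hXU fun g hg u hu => U.sub_mem (hU g hg u hu) hu
  obtain ⟨g, hg, u, hu, h1⟩ := h
  obtain ⟨v, hv, h2, h3⟩ := exists_fixed_mod hS (X := X) (Y := Y) (fun h => h1 (h (hY g hg u hu)))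
    hX fun g hg y hy => by simpa using Y.add_mem (hY g hg y (hYU hy)) hy
  refine ⟨v, hle Z hXZ hZ hv, h2, hle (LinearMap.ker (Φ.B v))
    (fun x hx => Φ.perp_symm (hp x hx v (hYU hv))) (fun g hg u hu => ?_) hv, h3⟩
  have := hp _ (h3 _ (S.inv_mem hg)) u hu
  rwa [Φ.B_sub_left, Iso.B_inv_left (hI hg), ← map_sub] at this

theorem exists_hyp_partner {W : Submodule K V} (hW : Φ.ND W) {e : V} (he : e ∈ W) (he0 : e ≠ 0)
    (hQ : Φ.Q e = 0) : ∃ f ∈ W, Φ.Q f = 0 ∧ Φ.B e f = 1 := by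
  obtain ⟨y, hy, h⟩ := hW.exists_ne he he0
  obtain ⟨t, ht⟩ := Φ.exists_singular_add hQ h
  exact ⟨(Φ.B e y)⁻¹ • (y + t • e), W.smul_mem _ (W.add_mem hy (W.smul_mem _ he)),
    Φ.Q_smul_zero ht _, by simp [Φ.B_self hQ, h]⟩

theorem mem_sup_two {H : Submodule K V} {e f x : V} :
    x ∈ H ⊔ K ∙ e ⊔ K ∙ f ↔ ∃ h ∈ H, ∃ a b : K, x = h + a • e + b • f := by
  simp only [Submodule.mem_sup, Submodule.mem_span_singleton]
  constructor
  · rintro ⟨_, ⟨h, hh, _, ⟨a, rfl⟩, rfl⟩, _, ⟨b, rfl⟩, rfl⟩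
    exact ⟨h, hh, a, b, rfl⟩
  · rintro ⟨h, hh, a, b, rfl⟩
    exact ⟨_, ⟨h, hh, _, ⟨a, rfl⟩, rfl⟩, _, ⟨b, rfl⟩, rfl⟩

theorem nd_sup_two {H : Submodule K V} (hH : Φ.ND H) {e f : V} (he : e ∈ Φ.perp H)
    (hf : f ∈ Φ.perp H) (he0 : Φ.Q e = 0) (hf0 : Φ.Q f = 0) (hef : Φ.B e f = 1) :
    Φ.ND (H ⊔ K ∙ e ⊔ K ∙ f) := by
  intro x hx h
  obtain ⟨y, hy, a, b, rfl⟩ := mem_sup_two.1 hx
  have h1 := Φ.perp_symm (h e (mem_sup_two.2 ⟨0, zero_mem _, 1, 0, by simp⟩))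
  have h2 := Φ.perp_symm (h f (mem_sup_two.2 ⟨0, zero_mem _, 0, 1, by simp⟩))
  simp only [map_add, map_smul, Φ.perp_symm (he y hy), Φ.perp_symm (hf y hy), Φ.B_self he0,
    Φ.B_self hf0, hef, smul_eq_mul, mul_zero, mul_one, add_zero, zero_add, mul_eq_zero,
    Φ.ne_symm (x := e) (y := f) (by simp [hef]), or_false] at h1 h2
  subst h1 h2
  simp only [zero_smul, add_zero] at h ⊢
  exact hH y hy fun z hz => h z (Submodule.mem_sup_left (Submodule.mem_sup_left hz))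

theorem mem_fixing_sup_two {H : Submodule K V} {e f : V} {g : V ≃ₗ[K] V}
    (h : g ∈ fixing (H : Set V)) (he : g e = e) (hf : g f = f) :
    g ∈ fixing ((H ⊔ K ∙ e ⊔ K ∙ f : Submodule K V) : Set V) := fun x hx => by
  obtain ⟨y, hy, a, b, rfl⟩ := mem_sup_two.1 hx
  rw [map_add, map_add, map_smul, map_smul, he, hf, h y hy]

theorem lt_sup_two {H : Submodule K V} {e f : V} (he : e ∈ Φ.perp H) (hef : Φ.B e f = 1) :
    H < H ⊔ K ∙ e ⊔ K ∙ f := lt_of_le_of_ne (le_sup_left.trans le_sup_left) fun h => by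
  have : f ∈ H := h ▸ mem_sup_two.2 ⟨0, zero_mem _, 0, 1, by simp⟩
  exact one_ne_zero (hef.symm.trans (Φ.perp_symm (he f this)))

theorem mem_stab_line {g : V ≃ₗ[K] V} {e : V} (h : g e = e) : g ∈ Class.Max.stab (K ∙ e) := by
  rw [mem_stab_iff_map, Submodule.map_span, Set.image_singleton, LinearEquiv.coe_coe, h]

variable [FiniteDimensional K V]

/-- Sylow `p`-subgroups are generated by their Eichler transformations. -/
theorem SylIn.le_of_eich [Finite V] (hQ : ∀ x, Φ.B x x = 0 → Φ.Q x = 0)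
    {G T : Subgroup (V ≃ₗ[K] V)} (h1 : Φ.EG ≤ G) (h2 : G ≤ Φ.Iso) {H : Submodule K V}
    (hH : Φ.ND H) {S : Subgroup (V ≃ₗ[K] V)} (hS : SylIn p S (G ⊓ fixing (H : Set V)))
    (hSG : S ≤ G ⊓ fixing (H : Set V))
    (hT : ∀ e w c, Φ.Valid e w c → Φ.HasE S e w c → Φ.HasE T e w c) : S ≤ T := by
  induction H using WellFoundedGT.induction generalizing S with | ind H ih =>
  by_cases h0 : S = ⊥
  · rw [h0]; exact bot_le
  have hP := hS.isPGroup hSG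
  obtain ⟨e, he, he0, hee, hfix⟩ := exists_isotropic_fixed_mod hP (fun g hg => h2 (hSG hg).1)
    (X := ⊥) (U := ⊤) (Z := Φ.perp H) le_top (by simp) (by simp) (by simp) bot_le
    (fun g hg u _ => iso_mem_perp (h2 (hSG hg).1) (hSG hg).2 u) (by
      obtain ⟨g, hg, hg1⟩ := (Subgroup.bot_or_exists_ne_one S).resolve_left h0
      by_contra hc
      push Not at hc
      exact hg1 (LinearEquiv.ext fun x => sub_eq_zero.1 (hc g hg x trivial)))
  simp only [Submodule.mem_bot, sub_eq_zero] at he0 hfix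
  obtain ⟨f, hf, hf0, hef⟩ := exists_hyp_partner hH.perp he he0 (hQ e hee)
  set G' := G ⊓ fixing (H : Set V)
  have hG' : G' ≤ Φ.Iso := inf_le_left.trans h2
  have hR : ∀ B, B ≤ G' → (∀ g ∈ B, g e = e) →
      B ≤ Subgroup.normalizer ((radF Φ (K ∙ e) ⊓ G' : Subgroup _) : Set (V ≃ₗ[K] V)) :=
    fun B h3 h4 g hg => (mem_normalizer_radF hG' (h3 hg) (mem_stab_line (h4 g hg))).2
  have hRp : IsPGroup p ↥(radF Φ (K ∙ e) ⊓ G') := (isPGroup_radF _).to_le inf_le_left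
  have hRS := hS.le_of_normalizes hSG hRp inf_le_right (hR S hSG hfix)
  set G'' := G ⊓ fixing ((H ⊔ K ∙ e ⊔ K ∙ f : Submodule K V) : Set V)
  have hle : G'' ≤ G' := fun g hg =>
    ⟨hg.1, fun x hx => hg.2 x (Submodule.mem_sup_left (Submodule.mem_sup_left hx))⟩
  have key : ∀ g ∈ S, ∃ q ∈ radF Φ (K ∙ e) ⊓ G', q ∈ T ∧ q⁻¹ * g ∈ S ⊓ G'' := fun g hg => by
    obtain ⟨c, hv, h3, h4⟩ := exists_ef_of_fix (hQ e hee) hef (hG' (hSG hg)) (hfix g hg)
    have h5 : hv.eich ∈ radF Φ (K ∙ e) ⊓ G' := ⟨eich_mem_radF (ts_line hv.sing) hv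
      (Submodule.mem_span_singleton_self e) (Φ.mem_perp_span_singleton.2 hv.perp), h1 hv.eich_mem,
      fun x hx => ef_apply_of_perp (Φ.perp_symm (he x hx))
        (Φ.perp_symm (iso_mem_perp (hG' (hSG hg)) (hSG hg).2 f x hx))⟩
    have h6 := S.mul_mem (S.inv_mem (hRS h5)) hg
    refine ⟨_, h5, (hT _ _ _ hv ⟨_, hRS h5, hv.eich_apply⟩).mem hv.eich_apply, h6, (hSG h6).1,
      mem_fixing_sup_two (hSG h6).2 (hfix _ h6) ?_⟩
    exact hv.eich.injective (by rw [mul_app, app_inv_app, h3])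
  have h3 := ih _ (lt_sup_two he hef) (nd_sup_two hH he hf (hQ e hee) hf0 hef) (S := S ⊓ G'')
    (sylIn_of_max inf_le_right (hP.to_le inf_le_left) fun B hB h3 h4 => le_inf ?_ h4) inf_le_right
    fun e w c hv h => hT e w c hv (h.mono inf_le_left)
  · intro g hg
    obtain ⟨q, -, hq, h4⟩ := key g hg
    simpa using T.mul_mem hq (h3 h4)
  · refine le_sup_left.trans (hS.eq_of_le hSG (hB.to_sup_of_normal_right' hRp (hR B (h4.trans hle)
      fun g hg => (h4 hg).2 e (mem_sup_two.2 ⟨0, zero_mem _, 1, 0, by simp⟩))) (fun g hg => ?_)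
      (sup_le (h4.trans hle) inf_le_right)).le
    obtain ⟨q, hq, -, h5⟩ := key g hg
    simpa using Subgroup.mul_mem _ (Subgroup.mem_sup_right hq)
      (Subgroup.mem_sup_left (h3 h5) : _ ∈ B ⊔ radF Φ (K ∙ e) ⊓ G')

/-- In the symplectic case pointwise stabilisers are generated by Eichler transformations. -/
theorem fix_le_of_alt (hQ : ∀ x, Φ.Q x = 0) (hB : ∀ x y, Φ.B y x = - Φ.B x y)
    {H : Submodule K V} (hH : Φ.ND H) {M : Subgroup (V ≃ₗ[K] V)} (hM : Φ.HasOn M (Φ.perp H)) :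
    Φ.Iso ⊓ fixing (H : Set V) ≤ M := by
  induction H using WellFoundedGT.induction with | ind H ih =>
  intro g hg
  by_cases h0 : Φ.perp H = ⊥
  · have : g = 1 := LinearEquiv.ext fun x =>
      sub_eq_zero.1 (by simpa [h0] using iso_mem_perp hg.1 hg.2 x)
    exact this ▸ M.one_mem
  obtain ⟨e, he, he0⟩ := Submodule.exists_mem_ne_zero_of_ne_bot h0
  obtain ⟨f, hf, hf0, hef⟩ := exists_hyp_partner hH.perp he he0 (hQ e)
  have hM' := (hM.inf (hasOn_Iso _)).inf (hasOn_fixing (S := (H : Set V))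
    fun y hy z hz => Φ.perp_symm (hy z hz))
  have hmem : ∀ a ∈ Φ.Iso, a ∈ fixing (H : Set V) → ∀ x ∈ Φ.perp H, a x ∈ Φ.perp H :=
    fun a h1 h2 x hx => by simpa using (Φ.perp H).add_mem (iso_mem_perp h1 h2 x) hx
  have step : ∀ x ∈ Φ.perp H, ∀ y ∈ Φ.perp H, Φ.B x y ≠ 0 →
      ∃ a ∈ M ⊓ Φ.Iso ⊓ fixing (H : Set V), a x = y := fun x hx y hy h =>
    hM'.exists_move (sub_mem hy hx) (sub_mem hy hx) (hQ _)
      (by simpa [Φ.B_self (hQ x)] using Φ.ne_symm h)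
      (by simp [Φ.B_self (hQ x), Φ.B_self (hQ y), hB x y]) (by rw [hQ, hQ])
  have hge := hmem g hg.1 hg.2 e he
  obtain ⟨z, hz, h1, h2⟩ := exists_ne_zero_ne_zero (Φ.perp H) (Φ.B e).map_add (Φ.B (g e)).map_add
    (hH.perp.exists_ne he he0) (hH.perp.exists_ne hge (by simpa using he0))
  obtain ⟨a, ha, ea⟩ := step _ hge z hz h2
  obtain ⟨b, hb, eb⟩ := step _ he z hz h1
  have hab := Subgroup.mul_mem _ (Subgroup.inv_mem _ hb) ha
  have h3 : (b⁻¹ * a * g) e = e := by rw [mul_app, mul_app, ea, ← eb, inv_app_app]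
  have h4 : b⁻¹ * a * g ∈ Φ.Iso ⊓ fixing (H : Set V) := Subgroup.mul_mem _ ⟨hab.1.2, hab.2⟩ hg
  obtain ⟨c, hv, h5, h6⟩ := exists_ef_of_fix (hQ e) hef h4.1 h3
  have h7 := (hM' e he _ (iso_mem_perp h4.1 h4.2 f) c hv).mem hv.eich_apply
  have h8 := Subgroup.mul_mem _ (Subgroup.inv_mem _ (⟨h7.1.2, h7.2⟩ :
    hv.eich ∈ Φ.Iso ⊓ fixing (H : Set V))) h4
  have h9 := ih _ (lt_sup_two he hef) (nd_sup_two hH he hf (hQ e) hf0 hef)
    (hM.mono le_rfl (Φ.perp_anti (le_sup_left.trans le_sup_left)))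
    ⟨h8.1, mem_fixing_sup_two h8.2 (inv_mul_app_eq (h6.trans h3.symm)) (inv_mul_app_eq h5)⟩
  exact (M.mul_mem_cancel_left hab.1.1).1 ((M.mul_mem_cancel_left (M.inv_mem h7.1.1)).1 h9)

theorem SClosed.hasE {G S T : Subgroup (V ≃ₗ[K] V)} (h : SClosed G S T) {g : V ≃ₗ[K] V}
    (hg : g ∈ G) (hI : g ∈ Φ.Iso) {e w : V} {c : K} (h1 : Φ.HasE T e w c)
    (h2 : Φ.HasE S (g e) (g w) c) : Φ.HasE T (g e) (g w) c := by
  obtain ⟨t, ht, et⟩ := h1
  obtain ⟨s, hs, es⟩ := h2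
  obtain rfl : s = g * t * g⁻¹ := LinearEquiv.ext fun x => by
    rw [es, mul_app, mul_app, et, Iso.ef hI, app_inv_app]
  exact ⟨_, h.2 t ht g hg hs, es⟩

theorem exists_norm_sub_norm [Finite K] {r : K} (hr : Φ.σ r = r) :
    ∃ a b, r = a * Φ.σ a - b * Φ.σ b := by
  by_cases hσ : Φ.σ = RingHom.id K
  · simp only [hσ, RingHom.id_apply]
    by_cases h2 : ringChar K = 2
    · obtain ⟨a, ha⟩ := FiniteField.isSquare_of_char_two h2 r
      exact ⟨a, 0, by simpa using ha⟩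
    · have := Ring.two_ne_zero h2
      exact ⟨(r + 1) / 2, (r - 1) / 2, by field_simp; ring⟩
  · obtain ⟨a, ha⟩ := Class.exists_mul_conj_eq hσ Φ.invol hr
    exact ⟨a, 0, by simpa using ha.symm⟩

theorem HasE.lam_of_two {T : Subgroup (V ≃ₗ[K] V)} {e w : V} {c c' : K} (hv : Φ.Valid e w c)
    (hv' : Φ.Valid e w c') (h : Φ.HasE T e w c) (h' : Φ.HasE T e w c') :
    Φ.π (c' - c) = 0 ∧ Φ.HasE T e 0 (c' - c) := by
  refine ⟨by rw [map_sub, hv.norm, hv'.norm, sub_self], ?_⟩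
  have := h'.add hv' hv.neg (h.neg hv)
  rw [add_neg_cancel, map_neg, ← Φ.trace c w hv.norm] at this
  convert this using 1
  ring

theorem exists_perp_B_eq {e w : V} (hw : w ∉ K ∙ e) (b : K) : ∃ u, Φ.B e u = 0 ∧ Φ.B w u = b := by
  obtain ⟨y, hy, h⟩ := Φ.exists_perp_not_perp hw
  have h1 : Φ.B w y ≠ 0 := Φ.ne_symm (by simp [h])
  exact ⟨(b / Φ.B w y) • y, by simp [Φ.mem_perp_span_singleton.1 hy], by simp [h1]⟩

section SC

variable {S T : Subgroup (V ≃ₗ[K] V)} {e : V}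

theorem SClosed.hasE_fix (hT : SClosed Φ.EG S T) (hS : Φ.Full S e) {g : V ≃ₗ[K] V}
    (hg : g ∈ Φ.EG) (hge : g e = e) {w : V} {c : K} (hv : Φ.Valid e w c) (h : Φ.HasE T e w c) :
    Φ.Valid e (g w) c ∧ Φ.HasE T e (g w) c := by
  have hI := Φ.EG_le_Iso hg
  have h1 := hv.map hI
  have h2 := hT.hasE hg hI h (by rw [hge] at h1 ⊢; exact hS _ _ h1)
  rw [hge] at h1 h2
  exact ⟨h1, h2⟩

/-- A strongly closed subgroup meeting `Q_e` contains a non-trivial transvection. -/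
theorem SClosed.exists_lam (hT : SClosed Φ.EG S T) (hS : Φ.Full S e) (he0 : e ≠ 0)
    (hex : (∃ l, Φ.σ l ≠ Φ.ε * l) ∨ ((∀ c, Φ.π c = 0) ∧
      ((∃ μ : K, μ ≠ 0 ∧ μ ≠ 1) ∨ Φ.d + 4 ≤ finrank K V)))
    {w : V} {c : K} (hv : Φ.Valid e w c) (h : Φ.HasE T e w c) (hne : ∃ x, Φ.ef e w c x ≠ x) :
    ∃ c, c ≠ 0 ∧ Φ.π c = 0 ∧ Φ.HasE T e 0 c := by
  by_contra hno
  have uniq : ∀ w c c', Φ.Valid e w c → Φ.Valid e w c' → Φ.HasE T e w c → Φ.HasE T e w c' →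
      c' = c := fun w c c' hv hv' h h' => by
    by_contra hc
    exact hno ⟨_, sub_ne_zero.2 hc, HasE.lam_of_two hv hv' h h'⟩
  have shift : ∀ w c l, Φ.Valid e (w + l • e) c → Φ.HasE T e (w + l • e) c →
      Φ.Valid e w (c + Φ.σ l - Φ.ε * l) ∧ Φ.HasE T e w (c + Φ.σ l - Φ.ε * l) :=
    fun w c l hv ⟨t, ht, et⟩ => by
      simp only [ef_add_smul] at et
      refine ⟨Fm.valid_of_Iso hv.sing he0 ?_ (hv.mem_Iso (g := t) (by
        simpa only [ef_add_smul] using et)) et, t, ht, et⟩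
      simpa [Φ.B_self hv.sing] using hv.perp
  have hw : w ∉ K ∙ e := fun hw => by
    obtain ⟨l, rfl⟩ := Submodule.mem_span_singleton.1 hw
    obtain ⟨x, hx⟩ := hne
    rw [← zero_add (l • e)] at hv h hx
    obtain ⟨h1, h2⟩ := shift _ _ _ hv h
    rw [ef_add_smul, uniq _ _ _ (valid_lam hv.sing (map_zero _)) h1 (hasE_zero e) h2] at hx
    exact hx (ef_zero e x)
  have h1 : ∀ l, Φ.σ l = Φ.ε * l := fun l => by
    obtain ⟨u, hu, huw⟩ := exists_perp_B_eq (Φ := Φ) hw (-Φ.σ l)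
    obtain ⟨d, hd⟩ := exists_valid hv.sing hu
    obtain ⟨h2, h3⟩ := hT.hasE_fix hS hd.eich_mem hd.ef_self hv h
    have h4 : hd.eich w = w + l • e := by
      rw [hd.eich_apply, ef_apply_of_perp' hv.perp, Φ.symm w u, huw, map_neg, Φ.invol,
        ← mul_assoc, Φ.eps_sq, one_mul, neg_smul, sub_neg_eq_add]
    rw [h4] at h2 h3
    obtain ⟨h5, h6⟩ := shift _ _ _ h2 h3
    linear_combination uniq _ _ _ hv h5 h h6
  obtain ⟨l, hl⟩ | ⟨hπ, hex⟩ := hex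
  · exact hl (h1 l)
  have hε : Φ.ε = 1 := by simpa using (h1 1).symm
  have hσ : ∀ l, Φ.σ l = l := fun l => by rw [h1, hε, one_mul]
  have hQ : ∀ x, Φ.Q x = 0 := fun x => by
    obtain ⟨a, ha⟩ := Φ.range x
    rw [← ha, hπ]
  have hval : ∀ s w c, Φ.B s w = 0 → Φ.Valid s w c := fun s w c h => ⟨hQ s, h, by rw [hπ, hQ]⟩
  have hBB : ∀ x, Φ.B x x = 0 := fun x => Φ.B_self (hQ x)
  have step : ∀ x y, Φ.B e x = 0 → Φ.B e y = 0 → Φ.B y x ≠ 0 → Φ.HasE T e x c →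
      Φ.HasE T e y c := fun x y hx hy hxy h => by
    have hv' := hval (x - y) 0 (-(Φ.B y x)⁻¹) (map_zero _)
    have h2 := (hT.hasE_fix hS hv'.eich_mem (by
      rw [hv'.eich_apply, ef_lam, Φ.perp_symm (x := e) (by simp [hx, hy])]; simp)
      (hval e x c hx) h).2
    rwa [hv'.eich_apply, ef_lam, Φ.B_sub_left, hBB, hε, one_mul, zero_sub, neg_mul_neg,
      inv_mul_cancel₀ hxy, one_smul, sub_sub_cancel] at h2
  have hall : ∀ y, Φ.B e y = 0 → y ∉ K ∙ e → Φ.HasE T e y c := fun y hy hy' => by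
    obtain ⟨a, ha, ha'⟩ := exists_perp_B_eq (Φ := Φ) hw 1
    obtain ⟨b, hb, hb'⟩ := exists_perp_B_eq (Φ := Φ) hy' 1
    obtain ⟨z, hz, h2, h3⟩ := exists_ne_zero_ne_zero (LinearMap.ker (Φ.B e)) (Φ.B w).map_add
      (Φ.B y).map_add ⟨a, ha, by simp [ha']⟩ ⟨b, hb, by simp [hb']⟩
    exact step z y hz hy h3 (step w z hv.perp hz (Φ.ne_symm h2) h)
  have hnot : ∀ a y, Φ.B e a = 0 → Φ.B a y ≠ 0 → y ∉ K ∙ e := fun a y h1 h2 h3 => by
    obtain ⟨l, rfl⟩ := Submodule.mem_span_singleton.1 h3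
    exact h2 (by rw [map_smul, Φ.perp_symm h1, smul_zero])
  have key : ∀ y, Φ.B e y = 0 → y ∉ K ∙ e → w + y ∉ K ∙ e → c + Φ.B w y = 0 :=
    fun y hy h2 h3 => by
      have h4 : Φ.B e (w + y) = 0 := by rw [map_add, hv.perp, hy, add_zero]
      linear_combination uniq _ _ _ (hval e _ c h4) (hv.add (hval e y c hy)) (hall _ h4 h3)
        (h.add hv (hval e y c hy) (hall y hy h2))
  have key' : ∀ μ : K, μ ≠ 0 → c + μ = 0 := fun μ hμ => by
    obtain ⟨y, hy, hy'⟩ := exists_perp_B_eq (Φ := Φ) hw μ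
    rw [← hy']
    exact key y hy (hnot w y hv.perp (by rwa [hy'])) (hnot w _ hv.perp (by simpa [hBB, hy']))
  obtain ⟨μ, h2, h3⟩ | hd := hex
  · exact h3 (by linear_combination key' μ h2 - key' 1 one_ne_zero)
  · obtain ⟨s, hs, hs'⟩ := exists_perp_B_eq (Φ := Φ) hw 1
    obtain ⟨y, hy, -, h2, h3, z, hz, h4⟩ :=
      Φ.nd_top.big_inf (e := e) trivial (by rwa [finrank_top]) w s
    have := key y hy.2 (hnot z y hz.2 (Φ.ne_symm h4)) (hnot s _ hs (by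
      simpa [h3] using Φ.ne_symm (x := w) (y := s) (by simp [hs'])))
    rw [h2, add_zero] at this
    simpa [this] using key' 1 one_ne_zero

theorem SClosed.lam_all [Finite K] (hd : Φ.d + 2 ≤ finrank K V) (hT : SClosed Φ.EG S T)
    (hS : Φ.Full S e) (he0 : e ≠ 0) (he : Φ.Q e = 0) {c₁ : K} (h0 : c₁ ≠ 0) (h1 : Φ.π c₁ = 0)
    (h : Φ.HasE T e 0 c₁) (c : K) (hc : Φ.π c = 0) : Φ.HasE T e 0 c := by
  have hn : ∀ a, Φ.π (a * Φ.σ a * c₁) = 0 := fun a => by rw [Φ.π_norm, h1, mul_zero]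
  have h2 : ∀ a, Φ.HasE T e 0 (a * Φ.σ a * c₁) := fun a => by
    by_cases ha : a = 0
    · simpa [ha] using hasE_zero e
    obtain ⟨g, hg, hge⟩ := move_EG hd he0 (smul_ne_zero ha he0) (by rw [Φ.Q_smul_zero he, he])
    have := hT.hasE hg (Φ.EG_le_Iso hg) h (by
      rw [hge, map_zero, hasE_smul_left, smul_zero]; exact hS _ _ (valid_lam he (hn a)))
    rwa [hge, map_zero, hasE_smul_left, smul_zero] at this
  have h3 := Φ.lam_trace hc
  have h4 := Φ.lam_trace h1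
  have h5 := Φ.σ_ne h0
  obtain ⟨a, b, hab⟩ := exists_norm_sub_norm (Φ := Φ) (r := c / c₁) (by
    rw [map_div₀, div_eq_div_iff h5 h0]
    linear_combination Φ.ε * c₁ * h3 - Φ.ε * c * h4 + (c * Φ.σ c₁ - c₁ * Φ.σ c) * Φ.eps_sq)
  have := (HasE.lam_of_two (valid_lam he (hn b)) (valid_lam he (hn a)) (h2 b) (h2 a)).2
  rwa [← sub_mul, ← hab, div_mul_cancel₀ _ h0] at this

theorem SClosed.hasE_of_conj (hd : Φ.d + 2 ≤ finrank K V) (hT : SClosed Φ.EG S T) (he0 : e ≠ 0)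
    (he : Φ.Q e = 0) {v w : V} {c : K} (hv : Φ.Valid v w c) (h : Φ.HasE S v w c)
    (hTe : ∀ g ∈ Φ.Iso, Φ.Valid e (g w) c → Φ.HasE T e (g w) c) : Φ.HasE T v w c := by
  by_cases hv0 : v = 0
  · subst hv0
    exact full_zero w c hv
  obtain ⟨g, hg, rfl⟩ := move_EG hd he0 hv0 (by rw [hv.sing, he])
  have hI := Φ.EG_le_Iso hg
  have h1 := hv.map (Φ.Iso.inv_mem hI)
  rw [inv_app_app] at h1
  have := hT.hasE hg hI (hTe _ (Φ.Iso.inv_mem hI) h1) (by rwa [app_inv_app])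
  rwa [app_inv_app] at this

theorem SClosed.full (hT : SClosed Φ.EG S T) (hSG : S ≤ Φ.EG) (hS : Φ.Full S e) (he : Φ.Q e = 0)
    (hΛ : ∀ c, Φ.π c = 0 → Φ.HasE T e 0 c) {v : V} {c₀ : K} (hc₀ : c₀ ≠ 0) (hπ : Φ.π c₀ = 0)
    (hv : Φ.Q v = 0) (hev : Φ.B e v = 0) (hve : v ∉ K ∙ e) (h : Φ.HasE T v 0 c₀) :
    Φ.Full T e := by
  have hε := mul_ne_zero Φ.eps_ne hc₀
  have h1 : ∀ a : K, Φ.InA T e (a • v) := fun a => by
    obtain ⟨u, hu, hu'⟩ := exists_perp_B_eq (Φ := Φ) hve (-a / (Φ.ε * c₀))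
    obtain ⟨c, hc⟩ := exists_valid he hu
    obtain ⟨t, ht, et⟩ := h
    have hI : t ∈ Φ.Iso := (valid_lam hv hπ).mem_Iso et
    have hte : t e = e := by rw [et, ef_lam, Φ.perp_symm hev]; simp
    have h2 := hc.map hI
    rw [hte] at h2
    have h3 : t u + -u = a • v := by
      rw [et, ef_lam, hu', mul_div_cancel₀ _ hε]; module
    have hq := (hS u c hc).mem hc.eich_apply
    refine ⟨_, h3 ▸ h2.add hc.neg, t * (hc.eich * t⁻¹ * hc.eich⁻¹), T.mul_mem ht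
      (hT.conj_mem ⟨hSG hq, Subgroup.le_normalizer hq⟩ (T.inv_mem ht)), fun x => ?_⟩
    rw [← h3, ← h2.ef_ef hc.neg, mul_app, mul_app, mul_app, hc.eich_apply, Iso.ef hI, hte,
      app_inv_app]
    rfl
  have h2 : ∀ s, Φ.Q s = 0 → Φ.B e s = 0 → Φ.B s v ≠ 0 → Φ.InA T e s := fun s hs hes hsv => by
    have hv' := valid_lam hs hπ
    obtain ⟨c, hc, h3⟩ := h1 (-(Φ.ε * c₀ * Φ.B s v)⁻¹)
    obtain ⟨h4, h5⟩ := hT.hasE_fix hS hv'.eich_mem (by
      rw [hv'.eich_apply, ef_lam, Φ.perp_symm hes]; simp) hc h3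
    have := InA.sub ⟨c, h4, h5⟩ ⟨c, hc, h3⟩
    rwa [hv'.eich_apply, ef_lam, sub_sub_cancel_left, map_smul, smul_eq_mul, mul_left_comm,
      neg_mul, inv_mul_cancel₀ (mul_ne_zero hε hsv), neg_smul, neg_neg, one_smul] at this
  have h3 : ∀ x, Φ.B e x = 0 → Φ.B v x ≠ 0 → Φ.InA T e x := fun x hx hvx => by
    obtain ⟨t, ht⟩ := Φ.exists_singular_add hv hvx
    simpa using (h2 _ ht (by simp [hx, hev]) (Φ.ne_symm (by simpa [Φ.B_self hv] using hvx))).sub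
      (h1 t)
  intro w c hc
  refine InA.hasE ?_ hΛ hc
  by_cases h4 : Φ.B v w = 0
  · obtain ⟨u, hu, hu'⟩ := exists_perp_B_eq (Φ := Φ) hve 1
    simpa using (h3 (w + u) (by simp [hc.perp, hu]) (by simp [h4, hu'])).sub
      (h3 u hu (by simp [hu']))
  · exact h3 w hc.perp h4

end SC

/-- The `p`-fusion system of a symplectic or unitary group of rank at least two is simple. -/
theorem isSimple_EG [Finite K] (hd : Φ.d + 2 ≤ finrank K V) (hΛ : ∃ c, c ≠ 0 ∧ Φ.π c = 0)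
    (hQ : ∀ x, Φ.B x x = 0 → Φ.Q x = 0)
    (hex : (∃ l, Φ.σ l ≠ Φ.ε * l) ∨ ((∀ c, Φ.π c = 0) ∧
      ((∃ μ : K, μ ≠ 0 ∧ μ ≠ 1) ∨ Φ.d + 4 ≤ finrank K V)))
    (hgen : ∀ H, Φ.ND H → ∀ M, Φ.HasOn M (Φ.perp H) → Φ.EG ⊓ fixing (H : Set V) ≤ M)
    (S : Subgroup (V ≃ₗ[K] V)) (hSG : S ≤ Φ.EG) (hS : SylIn p S Φ.EG) :
    (fusionSystemOfSubgroup Φ.EG S hSG).IsSimple p := by
  have : Finite V := Module.finite_of_finite K
  have : Finite (V ≃ₗ[K] V) := finite_linEquiv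
  have hP := hS.isPGroup hSG
  have hG := Φ.EG_le_Iso
  obtain ⟨c₀, hc₀, hπ⟩ := hΛ
  have hε := mul_ne_zero Φ.eps_ne hc₀
  have hrad : ∀ Y : Submodule K V, (∀ g ∈ S, ∀ y ∈ Y, g y ∈ Y) → radF Φ Y ⊓ Φ.EG ≤ S :=
    fun Y hY => hS.le_of_normalizes hSG ((isPGroup_radF _).to_le inf_le_left) inf_le_right
      fun g hg => (mem_normalizer_radF hG (hSG hg) (mem_stab_of_mapsTo (hY g hg))).2
  have hfull : ∀ e, Φ.Q e = 0 → (∀ g ∈ S, ∀ y ∈ K ∙ e, g y ∈ K ∙ e) → Φ.Full S e :=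
    fun e he h w c hv => ⟨_, hrad _ h ⟨eich_mem_radF (ts_line he) hv
      (Submodule.mem_span_singleton_self e) (Φ.mem_perp_span_singleton.2 hv.perp), hv.eich_mem⟩,
      hv.eich_apply⟩
  have hS0 : S ≠ ⊥ := by
    rintro rfl
    obtain ⟨v, -, hv0, hv⟩ := Φ.iso ⊤ (by rw [finrank_top]; omega)
    obtain ⟨t, ht, et⟩ := hfull v hv (fun g hg y hy => by rwa [Subgroup.mem_bot.1 hg]) 0 c₀
      (valid_lam hv hπ)
    obtain ⟨x, hx⟩ := Φ.exists_B_ne hv0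
    have := et x
    rw [Subgroup.mem_bot.1 ht, one_app, ef_lam, eq_comm, sub_eq_self] at this
    exact smul_ne_zero (mul_ne_zero hε hx) hv0 this
  obtain ⟨e, -, he0, hee, hfix⟩ := exists_isotropic_fixed_mod hP (hSG.trans hG)
    (X := ⊥) (U := ⊤) (Z := ⊤) le_top (by simp) (by simp) (by simp) bot_le (by simp) (by
      obtain ⟨g, hg, hg1⟩ := (Subgroup.bot_or_exists_ne_one S).resolve_left hS0
      by_contra hc
      push Not at hc
      exact hg1 (LinearEquiv.ext fun x => sub_eq_zero.1 (hc g hg x trivial)))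
  simp only [Submodule.mem_bot, sub_eq_zero] at he0 hfix
  have he := hQ e hee
  have hE : ∀ g ∈ S, ∀ y ∈ K ∙ e, g y ∈ K ∙ e := fun g hg y =>
    stab_apply (mem_stab_line (hfix g hg))
  have hE0 : K ∙ e ≠ ⊥ := by simpa using he0
  have hSe := hfull e he hE
  obtain ⟨f, -, hf0, hef⟩ := exists_hyp_partner Φ.nd_top trivial he0 he
  obtain ⟨v₀, hv₀, hev₀, hv₀e, ht₀⟩ : ∃ v, Φ.Q v = 0 ∧ Φ.B e v = 0 ∧ v ∉ K ∙ e ∧
      Φ.HasE S v 0 c₀ := by
    obtain ⟨s, -, hs, hes, hfs, y, -, hy⟩ := big_top hd e f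
    have hv := valid_lam hs hπ
    have h1 : S ≤ Φ.EG ⊓ fixing {e} := fun g hg => ⟨hSG hg, fun v hv => by rw [hv, hfix g hg]⟩
    obtain ⟨k, hk⟩ := eich_pow (p := p) hv
    obtain ⟨j, -, hj⟩ := (Nat.dvd_prime_pow Fact.out).1 (orderOf_dvd_of_pow_eq_one hk)
    obtain ⟨g, hg, h2⟩ := (hS.of_le h1 inf_le_left).exists_conj
      (isPGroup_zpowers_of_orderOf_eq hj) (Subgroup.zpowers_le.2 ⟨hv.eich_mem, fun v hv' => by
        rw [hv', hv.eich_apply, ef_lam, Φ.perp_symm hes]; simp⟩)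
    have hge := hg.2 e rfl
    refine ⟨g s, by rw [Iso.Q (hG hg.1), hs], by rw [← hge, Iso.B (hG hg.1), hes], fun h => ?_,
      _, h2 _ (Subgroup.mem_zpowers _), fun x => by
        rw [mul_app, mul_app, hv.eich_apply, Iso.ef (hG hg.1), map_zero, app_inv_app]⟩
    obtain ⟨l, hl⟩ := Submodule.mem_span_singleton.1 h
    rw [← hge, ← map_smul] at hl
    rw [← g.injective hl, map_smul, smul_eq_zero,
      or_iff_left (Φ.ne_symm (x := e) (y := f) (by simp [hef]))] at hfs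
    rw [← g.injective hl, hfs] at hy
    simp at hy
  refine isSimple_ofSubgroup hSG hS hS0 (fun T hT hT0 => ?_) fun D hSD _ hD g hg => ?_
  · obtain ⟨z, hz, hz1, hzc⟩ := hT.exists_central hSG hP hT0
    obtain ⟨k, hk⟩ := hP ⟨z, hT.1 hz⟩
    have hzQ := pCent_radF ⟨c₀, hc₀, hπ⟩ le_rfl hG (ts_line he) hE0 z (hSG (hT.1 hz))
      ⟨k, congrArg Subtype.val hk⟩ fun x hx => (hzc x (hrad _ hE hx)).symm
    obtain ⟨c, hv, ez⟩ := eq_ef_of_mem_radF he hef hzQ.1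
    obtain ⟨c₁, h1, h2, h3⟩ := hT.exists_lam hSe he0 hex hv ⟨z, hz, ez⟩ (by
      by_contra hc
      push Not at hc
      exact hz1 (LinearEquiv.ext fun x => by rw [ez, hc, one_app]))
    have h4 := hT.lam_all hd hSe he0 he h1 h2 h3
    have h5 := hT.full hSG hSe he h4 hc₀ hπ hv₀ hev₀ hv₀e
      (hT.hasE_of_conj hd he0 he (valid_lam hv₀ hπ) ht₀ fun g _ _ => by
        rw [map_zero]; exact h4 _ hπ)
    refine SylIn.le_of_eich hQ le_rfl hG (H := ⊥) (fun x hx _ => hx) (S := S) ?_ ?_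
      fun v w c hv h => hT.hasE_of_conj hd he0 he hv h fun _ _ => h5 _ _
    · exact hS.of_le (fun g hg => ⟨hSG hg, fun x hx => by simp [show x = 0 from hx]⟩) inf_le_left
    · exact fun g hg => ⟨hSG hg, fun x hx => by simp [show x = 0 from hx]⟩
  · obtain ⟨l, hl⟩ : ∃ l : K, g e = l • e := by
      have h1 : ∀ s ∈ S, s (g e) = g e := fun s hs => by
        have := hfix _ (conj_mem_of_mem_normalizerIn' hg hs)
        rw [mul_app, mul_app] at this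
        rw [← app_inv_app g (s (g e)), this]
      have h2 : Φ.B e (g e) = 0 := by
        obtain ⟨t, ht, et⟩ := hSe 0 c₀ (valid_lam he hπ)
        have := h1 t ht
        rw [et, ef_lam, sub_eq_self, smul_eq_zero, or_iff_left he0] at this
        exact (mul_eq_zero.1 this).resolve_left hε
      refine Φ.exists_smul_of_perp fun y hy => ?_
      obtain ⟨c, hv⟩ := exists_valid he hy
      obtain ⟨t, ht, et⟩ := hSe y c hv
      have := h1 t ht
      rw [et, ef_apply_of_perp' h2, sub_eq_self, smul_eq_zero, or_iff_left he0] at this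
      exact Φ.perp_symm ((mul_eq_zero.1 this).resolve_left Φ.eps_ne)
    have hl0 : l ≠ 0 := by
      rintro rfl
      exact he0 (g.injective (by rw [hl, zero_smul, map_zero]))
    obtain ⟨v, hev, hve, hvv, hv⟩ := exists_isotropic_fixed_mod hP (hSG.trans hG)
      (X := K ∙ e) (U := Φ.perp (K ∙ e)) (Z := Φ.perp (K ∙ e)) (ts_line he).le_perp
      (fun x hx u hu => hu x hx) hE (fun g hg x => stab_apply (Iso.stab_perp (hG (hSG hg))
        (mem_stab_line (hfix g hg)))) (ts_line he).le_perp (fun g hg u hu => sub_mem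
          (stab_apply (Iso.stab_perp (hG (hSG hg)) (mem_stab_line (hfix g hg))) hu) hu) (by
        obtain ⟨t, ht, et⟩ := ht₀
        obtain ⟨u, hu, hu'⟩ := exists_perp_B_eq (Φ := Φ) hv₀e 1
        refine ⟨t, ht, u, Φ.mem_perp_span_singleton.2 hu, fun h => hv₀e ?_⟩
        rwa [et, ef_lam, hu', mul_one, sub_sub_cancel_left, neg_mem_iff,
          Submodule.smul_mem_iff _ hε] at h)
    rw [Φ.mem_perp_span_singleton] at hev
    have hmemY : ∀ x, x ∈ Submodule.span K {e, v} ↔ ∃ a b : K, a • e + b • v = x :=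
      fun x => Submodule.mem_span_pair
    have hY : Φ.TS (Submodule.span K {e, v}) := ts_span (by simp [he, hQ v hvv])
      (by simp [hee, hvv, hev, Φ.perp_symm hev])
    have heY : e ∈ Submodule.span K {e, v} := Submodule.subset_span (by simp)
    have hvY : v ∈ Submodule.span K {e, v} := Submodule.subset_span (by simp)
    have hYS : ∀ g ∈ S, ∀ y ∈ Submodule.span K {e, v}, g y ∈ Submodule.span K {e, v} := by
      intro g hg y hy
      obtain ⟨a, b, rfl⟩ := (hmemY y).1 hy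
      obtain ⟨c, hc⟩ := Submodule.mem_span_singleton.1 (hv g hg)
      rw [map_add, map_smul, map_smul, hfix g hg, ← sub_add_cancel (g v) v, ← hc]
      exact add_mem (Submodule.smul_mem _ _ heY) (Submodule.smul_mem _ _
        (add_mem (Submodule.smul_mem _ _ heY) hvY))
    have hmem : ∀ (Y : Submodule K V) y w c (hv : Φ.Valid y w c),
        (∀ x ∈ Y, Φ.ef y w c x ∈ Y) →
        hv.eich ∈ ppSub p (normalizerIn Φ.EG (radF Φ Y ⊓ Φ.EG)) := fun Y y w c hv h =>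
      let ⟨_, hk⟩ := eich_pow (p := p) hv
      mem_ppSub_of_pow (mem_normalizer_radF hG hv.eich_mem (mem_stab_of_mapsTo h)) hk
    have hSpp : ∀ Y : Submodule K V, (∀ g ∈ S, ∀ y ∈ Y, g y ∈ Y) →
        S ≤ ppSub p (normalizerIn Φ.EG (radF Φ Y ⊓ Φ.EG)) := fun Y hY =>
      le_ppSub_of_isPGroup hP fun g hg =>
        mem_normalizer_radF hG (hSG hg) (mem_stab_of_mapsTo (hY g hg))
    have hmove : ∀ x ∈ Submodule.span K {e, v}, x ∉ K ∙ (v - x) →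
        ∃ t ∈ ppSub p (normalizerIn Φ.EG (radF Φ (Submodule.span K {e, v}) ⊓ Φ.EG)), t x = v := by
      intro x hx h
      have hy := sub_mem hvY hx
      obtain ⟨u, hu, hu'⟩ := exists_perp_B_eq (Φ := Φ) h (-1)
      obtain ⟨c, hc⟩ := exists_valid (hY.1 _ hy) hu
      refine ⟨_, hmem _ _ _ _ hc fun z hz => ?_, ?_⟩
      · rw [ef_apply_of_perp' (hY.2 _ hy z hz)]
        exact sub_mem hz (Submodule.smul_mem _ _ hy)
      · rw [hc.eich_apply, ef_apply_of_perp' (hY.2 _ hy x hx), Φ.symm x u, hu', ← mul_assoc,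
          Φ.eps_sq]
        simp
    obtain ⟨t₁, ht₁, e₁⟩ := hmove e heY (by
      simpa using notMem_sup_span_sub (W := (⊥ : Submodule K V)) (u := e) (z := v)
        (by simpa using he0) (by simpa using hve))
    obtain ⟨t₂, ht₂, e₂⟩ := hmove (l • e) (Submodule.smul_mem _ _ heY) (by
      simpa using notMem_sup_span_sub (W := (⊥ : Submodule K V)) (u := l • e) (z := v)
        (by simpa [hl0] using he0) (by
          rwa [bot_sup_eq, Submodule.span_singleton_smul_eq (IsUnit.mk0 l hl0)]))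
    obtain ⟨k, hk, hke⟩ := exists_normalizer_scale hS (hSpp _ hYS)
      ((ppSub_le _ _).trans (normalizerIn_le _ _)) hfix
      (Subgroup.mul_mem _ (Subgroup.inv_mem _ ht₂) ht₁) hl0 (by
        rw [mul_app, e₁, ← e₂, inv_app_app])
    have hkD := hD _ (hrad _ hYS) (pCent_radF ⟨c₀, hc₀, hπ⟩ le_rfl hG hY fun h => he0 (by
      rwa [h] at heY)) hk
    have h1 : k⁻¹ * g ∈ Φ.EG := Φ.EG.mul_mem (Φ.EG.inv_mem (ppSub_le _ _ hk.1).1) hg.1
    have h2 : (k⁻¹ * g) e = e := by rw [mul_app, hl, ← hke, inv_app_app]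
    refine (D.mul_mem_cancel_left (D.inv_mem hkD)).1 (hD _ (hrad _ hE)
      (pCent_radF ⟨c₀, hc₀, hπ⟩ le_rfl hG (ts_line he) hE0)
      ⟨?_, Subgroup.mul_mem _ (Subgroup.inv_mem _ hk.2) hg.2⟩)
    obtain ⟨c, hc, h3, h4⟩ := exists_ef_of_fix he hef (hG h1) h2
    have h5 := hSpp _ hE ((hSe _ _ hc).mem hc.eich_apply)
    refine (Subgroup.mul_mem_cancel_left _ (Subgroup.inv_mem _ h5)).1 (hgen (⊥ ⊔ K ∙ e ⊔ K ∙ f)
      (nd_sup_two (fun x hx _ => hx) (by simp [Fm.mem_perp]) (by simp [Fm.mem_perp]) he hf0 hef) _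
      (hasOn_of fun y hy w hw c hv => hmem _ _ _ _ hv fun x hx => ?_)
      ⟨Φ.EG.mul_mem (Φ.EG.inv_mem hc.eich_mem) h1, mem_fixing_sup_two
        (fun x hx => by simp [show x = 0 from hx])
        (inv_mul_app_eq (h4.trans h2.symm)) (inv_mul_app_eq h3)⟩)
    have hx' := Submodule.mem_sup_left (T := K ∙ f) (Submodule.mem_sup_right (S := ⊥) hx)
    rwa [ef_apply_of_perp (Φ.perp_symm (hy x hx')) (Φ.perp_symm (hw x hx'))]

end Cfsg.Agent.Fus
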