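/-
Normal subsystems of the fusion system of a group of characteristic `p` are induced by normal
subgroups.
-/
import Mathlib
import Cfsg.Agent.Fus.GroupHyper
import Cfsg.Agent.Grp.Cores

set_option autoImplicit false

namespace Cfsg.Agent.Fus

open Cfsg Cfsg.FusionSystem

variable {G : Type*} [Group G] {p : ℕ}

theorem conj_pow_eq_mul_pow {g q u : G} (h1 : g * q * g⁻¹ = q * u) (h2 : g * u * g⁻¹ = u) (n : ℕ) :
    g ^ n * q * (g ^ n)⁻¹ = q * u ^ n := by
  induction n with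
  | zero => simp
  | succ n ih =>
    calc g ^ (n + 1) * q * (g ^ (n + 1))⁻¹ = g * (g ^ n * q * (g ^ n)⁻¹) * g⁻¹ := by group
      _ = (g * q * g⁻¹) * (g * u * g⁻¹) ^ n := by rw [ih, conj_pow]; group
      _ = _ := by rw [h1, h2]; group

/-- The elements normalizing `T` and acting trivially on `U` modulo `T`. -/
def cenModG (T U : Subgroup G) : Subgroup G where
  carrier := {g | g ∈ Subgroup.normalizer (T : Set G) ∧ ∀ u ∈ U, u⁻¹ * (g * u * g⁻¹) ∈ T}
  one_mem' := ⟨Subgroup.one_mem _, fun u _ => by simp⟩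
  mul_mem' {a b} ha hb := ⟨Subgroup.mul_mem _ ha.1 hb.1, fun u hu => by
    have := T.mul_mem (ha.2 u hu) ((ha.1 _).1 (hb.2 u hu))
    convert this using 1; group⟩
  inv_mem' {a} ha := ⟨Subgroup.inv_mem _ ha.1, fun u hu => by
    have := T.inv_mem (((Subgroup.inv_mem _ ha.1) _).1 (ha.2 u hu))
    have h := (T.mul_mem_cancel_left this).1 (show _ * 1 ∈ T by simpa using this)
    convert this using 1; group⟩

theorem normal_cenModG (P Q : Subgroup G) [hP : P.Normal] [hQ : Q.Normal] : (cenModG P Q).Normal :=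
  ⟨fun a ha g => ⟨by simp [Subgroup.normalizer_eq_top], fun u hu => by
    have := hP.conj_mem _ (ha.2 _ (hQ.conj_mem u hu g⁻¹)) g
    convert this using 1; group⟩⟩

theorem normal_opSub (p : ℕ) (K : Subgroup G) [hK : K.Normal] : (opSub p K).Normal :=
  ⟨fun a ha g => by
    have h := map_opSub_le p K (MulAut.conj g).toMonoidHom ⟨a, ha, rfl⟩
    exact opSub_mono p (by rintro _ ⟨x, hx, rfl⟩; exact hK.conj_mem x hx g) h⟩

theorem exists_conj_eq_of_fullyAutomized {S T R : Subgroup G} (hS : IsPGroup p S) (hTS : T ≤ S)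
    {E : FusionSystem T} (hR : E.IsFullyAutomized p R) {s : G} (hs : s ∈ S)
    (hsR : s ∈ Subgroup.normalizer (R : Set G)) (h : IsMap E R fun x => s * x * s⁻¹) :
    ∃ t ∈ T, ∀ x ∈ R, s * x * s⁻¹ = t * x * t⁻¹ := by
  have h1 := (fullyAutomized_iff.1 hR).2.eq_of_le (autInducedBy_le_autGroup E hR.1)
    (B := E.autGroup R ⊓ autInducedBy S R) ((isPGroup_autInducedBy hS R).to_le inf_le_right)
    (le_inf (autInducedBy_le_autGroup E hR.1) (autInducedBy_mono hTS R)) inf_le_left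
  obtain ⟨α, hα⟩ := exists_mulAut_conj hsR
  obtain ⟨t, ht, e⟩ := mem_autInducedBy.1 (h1.le ⟨mem_autGroup_of_isMap h hα,
    mem_autInducedBy.2 ⟨s, hs, hα⟩⟩)
  exact ⟨t, ht, fun x hx => by rw [← hα x hx, e x hx]⟩

theorem mem_of_conj_mod {P : Subgroup G} [P.Normal] {g q u : G} (hg : (orderOf g).Coprime p)
    (hu : ∃ k, u ^ p ^ k = 1) (h1 : g * q * g⁻¹ = q * u) (h2 : u⁻¹ * (g * u * g⁻¹) ∈ P) :
    u ∈ P := by
  obtain ⟨k, hk⟩ := hu
  have h3 := conj_pow_eq_mul_pow (g := (g : G ⧸ P)) (q := q) (u := u)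
    (by simpa using congrArg (QuotientGroup.mk (s := P)) h1)
    (by simpa using (QuotientGroup.eq.2 h2).symm) (orderOf g)
  rw [← QuotientGroup.mk_pow, pow_orderOf_eq_one] at h3
  have h4 : (u : G ⧸ P) ^ orderOf g = 1 := by simpa using h3
  have h5 : (u : G ⧸ P) ^ p ^ k = 1 := by rw [← QuotientGroup.mk_pow, hk, QuotientGroup.mk_one]
  have := pow_gcd_eq_one.2 ⟨h4, h5⟩
  rwa [(hg.pow_right k).gcd_eq_one, pow_one, QuotientGroup.eq_one_iff] at this

variable [hp : Fact p.Prime] [Finite G]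

theorem cenModG_inf_centralizer_le {P : Subgroup G} [P.Normal]
    (hG : Subgroup.centralizer ((pCore p G : Subgroup G) : Set G) ≤ pCore p G)
    (hP : IsPGroup p P) :
    cenModG P (pCore p G) ⊓ Subgroup.centralizer (P : Set G) ≤ pCore p G := by
  have := normal_cenModG P (pCore p G)
  refine Grp.le_pCore inferInstance fun ⟨g, hg⟩ => ?_
  obtain ⟨k, hk⟩ := hP.exists_card_eq
  obtain ⟨l, hl⟩ := Grp.pCore_isPGroup p G ⟨g ^ p ^ k, hG fun q hq => by
    have h1 := hg.1.2 q hq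
    have h2 := conj_pow_eq_mul_pow (g := g) (q := q) (u := q⁻¹ * (g * q * g⁻¹)) (by group)
      (by rw [← hg.2 _ h1]; group) (p ^ k)
    have h3 : (q⁻¹ * (g * q * g⁻¹)) ^ p ^ k = 1 :=
      congrArg Subtype.val (hk ▸ pow_card_eq_one' (x := (⟨_, h1⟩ : P)))
    rw [h3, mul_one, mul_inv_eq_iff_eq_mul] at h2
    exact h2.symm⟩
  exact ⟨k + l, Subtype.ext (by simpa [pow_add, pow_mul] using congrArg Subtype.val hl)⟩

/-- A normal subsystem of the fusion system of a group of characteristic `p` is the fusion system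
of a unique normal subgroup. -/
theorem existsUnique_normal_of_isNormalIn (S : Sylow p G)
    (hG : Subgroup.centralizer ((pCore p G : Subgroup G) : Set G) ≤ pCore p G) {T : Subgroup G}
    {E : FusionSystem T} (hE : E.IsNormalIn (groupFusionSystem (S : Subgroup G)) p) :
    ∃ (H : Subgroup G) (hTH : T ≤ H), H.Normal ∧ T = (S : Subgroup G) ⊓ H ∧
      E = fusionSystemOfSubgroup H T hTH ∧ ∀ (H' : Subgroup G) (hTH' : T ≤ H'), H'.Normal →
        T = (S : Subgroup G) ⊓ H' → E = fusionSystemOfSubgroup H' T hTH' → H' = H := by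
  obtain ⟨⟨hEs, -, hI⟩, hext⟩ := normalIn_iff.1 hE
  have hSp := S.isPGroup'
  have hTS : T ≤ S := Inv.le hI
  have hTp : IsPGroup p T := hSp.to_le hTS
  have hsc : ∀ x ∈ T, ∀ g : G, g * x * g⁻¹ ∈ (S : Subgroup G) → g * x * g⁻¹ ∈ T := fun x hx g h =>
    (isMap_group_conj g ((Subgroup.zpowers_le.2 hx).trans hTS) (by
      rintro _ ⟨n, rfl⟩
      simp only [← conj_zpow]
      exact Subgroup.zpow_mem _ h n)).mem_of_stronglyClosed (Inv.sc hI)
      (Subgroup.mem_zpowers x) hx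
  have hST : (S : Subgroup G) ≤ Subgroup.normalizer (T : Set G) := fun s hs =>
    mem_normalizer_of_conj_mem fun x hx =>
      hsc x hx s (S.1.mul_mem (S.1.mul_mem hs (hTS hx)) (S.1.inv_mem hs))
  set Q := pCore p G with hQ
  have hQn : Q.Normal := inferInstance
  have hQS : Q ≤ S := Grp.pCore_le_sylow S
  set P := Q ⊓ T with hPdef
  have hPn : P.Normal := ⟨fun x hx g =>
    ⟨hQn.conj_mem x hx.1 g, hsc x hx.2 g (hQS (hQn.conj_mem x hx.1 g))⟩⟩
  have hPT : P ≤ T := inf_le_right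
  have hN : ∀ g : G, g ∈ Subgroup.normalizer (P : Set G) := fun g => by
    simp [Subgroup.normalizer_eq_top]
  have hPimg : ∀ g : G, img P (fun x => g * x * g⁻¹) = P := fun g =>
    img_conj_eq_self (S := ⊤) ⟨trivial, hN g⟩
  have hPF : ∀ g : G, IsMap (groupFusionSystem (S : Subgroup G)) P fun x => g * x * g⁻¹ :=
    fun g => isMap_group_conj g (hPT.trans hTS) fun x hx => hQS (hPn.conj_mem x hx g).1
  have hPfn : E.IsFullyNormalized P := fullyNormalized_of_weaklyClosed (weaklyClosed_iff.2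
    ⟨hPT, fun f hf => by
      obtain ⟨-, -, g, e⟩ := isMap_group_iff.1 (hf.of_sub (Inv.sub hI))
      rw [img_congr e, hPimg]⟩)
  -- the group `K`
  let K : Subgroup G := cenModG P Q ⊓ (E.autGroup P).comap MulAut.conjNormal
  have hafn : ∀ g : G, ∀ x ∈ P, afn (MulAut.conjNormal g : MulAut P) x = g * x * g⁻¹ :=
    fun g x hx => by rw [afn_apply _ hx]; rfl
  have hK : ∀ g, g ∈ K ↔ (∀ q ∈ Q, q⁻¹ * (g * q * g⁻¹) ∈ P) ∧ IsMap E P fun x => g * x * g⁻¹ :=
    fun g => ⟨fun h => ⟨h.1.2, (isMap_afn hPT h.2).congr (hafn g)⟩,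
      fun h => ⟨⟨hN g, h.1⟩, mem_autGroup_of_isMap h.2 (hafn g)⟩⟩
  have hKn : K.Normal := ⟨fun a ha g => ⟨(normal_cenModG P Q).conj_mem a ha.1 g, by
    change MulAut.conjNormal (g * a * g⁻¹) ∈ E.autGroup P
    rw [map_mul, map_mul, map_inv]
    exact (Inv.sInv hI).conj_mem hTS hPT (mem_autGroup_of_isMap (hPF g) (hafn g)) ha.2⟩⟩
  have hcomm : ∀ H : Subgroup G, H.Normal → T = (S : Subgroup G) ⊓ H → ∀ g ∈ H, ∀ q ∈ Q,
      q⁻¹ * (g * q * g⁻¹) ∈ P := fun H hH hT g hg q hq => by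
    have h1 := Q.mul_mem (Q.inv_mem hq) (hQn.conj_mem q hq g)
    refine ⟨h1, hT ▸ ⟨hQS h1, ?_⟩⟩
    have := H.mul_mem (hH.conj_mem g hg q⁻¹) (H.inv_mem hg)
    simpa [mul_assoc] using this
  have hTK : T ≤ K := fun t ht => (hK t).2 ⟨fun q hq => ⟨Q.mul_mem (Q.inv_mem hq)
    (hQn.conj_mem q hq t), by
      have := T.mul_mem ((hST (hQS (Q.inv_mem hq)) t).1 ht) (T.inv_mem ht)
      simpa [mul_assoc] using this⟩, isMap_conj E hPT ht⟩
  have hR : ∀ g ∈ K, (∀ x ∈ P, g * x * g⁻¹ = x) → g ∈ Q := fun g hg h =>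
    cenModG_inf_centralizer_le hG (hTp.to_le hPT)
      ⟨hg.1, fun x hx => by rw [← mul_inv_eq_iff_eq_mul.1 (h x hx)]⟩
  have hsyl : SylIn p ((S : Subgroup G) ⊓ K) K :=
    (sylIn_top S).inf_normal le_top le_top fun g _ n hn => hKn.conj_mem n hn g
  have hfoc : (S : Subgroup G) ⊓ opSub p K ≤ T := by
    intro y hy
    have h1 := (hyp_ofSubgroup inf_le_right hsyl).ge ⟨⟨hy.1, opSub_le p K hy.2⟩, hy.2⟩
    refine focal_le_iff.2 (fun R f hf x hx => ?_) (hyp_le_focal _ p h1)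
    obtain ⟨hR', hf', k, hk, e⟩ := (isMap_ofSubgroup_iff _).1 hf
    obtain ⟨t, ht, et⟩ := exists_conj_eq_of_fullyAutomized hSp hTS (sat_fullyAutomized hTp hEs hPfn)
      (hR' hx).1 (hN x) ((hK x).1 (hR' hx).2).2
    have hr : t⁻¹ * x ∈ Q := hR _ (K.mul_mem (K.inv_mem (hTK ht)) (hR' hx).2) fun y hy => by
      calc t⁻¹ * x * y * (t⁻¹ * x)⁻¹ = t⁻¹ * (x * y * x⁻¹) * t := by group
        _ = y := by rw [et y hy]; group
    have h2 := ((hK k).1 hk).1 _ hr
    have h3 : k * t * k⁻¹ ∈ T := hsc t ht k (by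
      have := S.1.mul_mem (hf' x hx).1 (S.1.inv_mem (hQS (hQn.conj_mem _ hr k)))
      rw [e x hx] at this
      convert this using 1; group)
    have h4 := T.mul_mem ((hST (hQS (Q.inv_mem hr)) _).1 (T.mul_mem (T.inv_mem ht) h3)) h2.2
    rw [e x hx]
    convert h4 using 1; group
  -- the group `H`
  have hOn := normal_opSub p K
  set H := T ⊔ opSub p K with hH
  have hHK : H ≤ K := sup_le hTK (opSub_le p K)
  have hHn : H.Normal := ⟨fun a ha g => by
    refine (homOn_conj _ g).mem_of_sup (fun t ht => ?_)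
      (fun o ho => Subgroup.mem_sup_right (hOn.conj_mem o ho g)) a ha
    obtain ⟨k, hk, h⟩ := hsyl.exists_conj (B := Subgroup.zpowers (g * t * g⁻¹))
      (((hTp.to_le (Subgroup.zpowers_le.2 ht)).map (MulAut.conj g).toMonoidHom).to_le
        (Subgroup.zpowers_le.2 ⟨t, Subgroup.mem_zpowers t, rfl⟩))
      (Subgroup.zpowers_le.2 (hKn.conj_mem t (hTK ht) g))
    obtain ⟨o, ho, s, hs, -, e⟩ := hsyl.exists_opSub_mul (K.inv_mem hk)
    have h1 := hsc t ht (k * g) (by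
      simpa only [mul_assoc, mul_inv_rev] using
        (Subgroup.mem_inf.1 (h _ (Subgroup.mem_zpowers _))).1)
    have h2 := H.mul_mem (H.mul_mem (Subgroup.mem_sup_right ho)
      (Subgroup.mem_sup_left ((hST hs.1 _).1 h1))) (H.inv_mem (Subgroup.mem_sup_right ho))
    rw [inv_eq_iff_eq_inv.1 e] at h2
    convert h2 using 1; group⟩
  have hTH : T ≤ H := le_sup_left
  have hT : T = (S : Subgroup G) ⊓ H := le_antisymm (le_inf hTS hTH) fun x hx => by
    obtain ⟨t, ht, o, ho, rfl⟩ := exists_mul_of_mem_sup (A := T) (C := opSub p K)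
      (by simp [Subgroup.normalizer_eq_top]) hx.2
    exact T.mul_mem ht (hfoc ⟨(S.1.mul_mem_cancel_left (hTS ht)).1 hx.1, ho⟩)
  have hCH : ∀ g ∈ H, (∀ x ∈ P, g * x * g⁻¹ = x) → g ∈ T := fun g hg h =>
    hT ▸ ⟨hQS (hR g (hHK hg) h), hg⟩
  have htop : E.autGroup T ≤ autInducedBy H T := by
    intro α hα
    obtain ⟨o, ho, b, hb, -, rfl⟩ := (sat_sylIn_inn hTp hEs).exists_opSub_mul hα
    refine Subgroup.mul_mem _ (opSub_le_iff.2 (fun α hα hc => ?_) ho)
      (autInducedBy_mono hTH T (autInducedBy_self T ▸ hb))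
    obtain ⟨β, hβ, e₁, e₂⟩ := hext α hα
    obtain ⟨-, -, g₀, e₀⟩ := isMap_group_iff.1 hβ
    have e₃ : ∀ x ∈ T, afn α x = g₀ * x * g₀⁻¹ := fun x hx => by
      rw [← e₁ x hx, e₀ x (Subgroup.mem_sup_left hx)]
    obtain ⟨g, hg, hgc, e⟩ := exists_coprime_of_mem_autInducedBy
      (K := cenModG T (centralizerIn S T)) (mem_autInducedBy.2 ⟨g₀, ⟨mem_normalizer_of_afn e₃,
        fun c hc => e₀ c (Subgroup.mem_sup_right hc) ▸ (e₂ c hc).1⟩, e₃⟩) hc
    refine mem_autInducedBy.2 ⟨g, Subgroup.mem_sup_right (mem_opSub_of_coprime ((hK g).2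
      ⟨fun q hq => ?_, ((isMap_afn le_rfl hα).mono hPT).congr fun x hx => e x hx.2⟩) hgc), e⟩
    have h1 := Q.mul_mem (Q.inv_mem hq) (hQn.conj_mem q hq g)
    let ρ := T.normalizerMonoidHom
    have hρ : ∀ (a : Subgroup.normalizer (T : Set G)), ∀ x ∈ T, afn (ρ a) x = a * x * (a : G)⁻¹ :=
      fun a x hx => afn_conjAut a.2 hx
    let a : Subgroup.normalizer (T : Set G) := ⟨q⁻¹, hST (hQS (Q.inv_mem hq))⟩
    let b : Subgroup.normalizer (T : Set G) := ⟨g, hg.2⟩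
    have hb : ρ b ∈ E.autGroup T :=
      mem_autGroup_of_isMap (isMap_afn le_rfl hα) fun x hx => by rw [hρ b x hx, e x hx]
    have h2 := Subgroup.mul_mem _ ((Inv.sInv hI).conj_mem hTS le_rfl (mem_autGroup_of_isMap
      (isMap_conj _ hTS (hQS (Q.inv_mem hq))) (hρ a)) hb) (Subgroup.inv_mem _ hb)
    rw [← map_inv, ← map_inv, ← map_mul, ← map_mul, ← map_mul] at h2
    obtain ⟨t, ht, et⟩ := exists_conj_eq_of_fullyAutomized hSp hTS (sat_fullyAutomized_top hTp hEs)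
      (hQS h1) (hST (hQS h1)) ((isMap_afn le_rfl h2).congr fun x hx => by
        rw [hρ _ x hx]; simp [a, b, mul_assoc])
    refine mem_of_conj_mod hgc ((hSp ⟨_, hQS h1⟩).imp fun k hk => congrArg Subtype.val hk)
      (q := q) (by group) ?_
    generalize q⁻¹ * (g * q * g⁻¹) = u at h1 et
    refine ⟨Q.mul_mem (Q.inv_mem h1) (hQn.conj_mem u h1 g), ?_⟩
    have h3 : t⁻¹ * u ∈ centralizerIn (S : Subgroup G) T :=
      ⟨S.1.mul_mem (S.1.inv_mem (hTS ht)) (hQS h1), fun y hy => by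
        calc y * (t⁻¹ * u) = t⁻¹ * (t * y * t⁻¹) * u := by group
          _ = _ := by rw [← et y hy]; group⟩
    have h4 := T.mul_mem ((hST (S.1.inv_mem h3.1) _).1 (T.mul_mem (T.inv_mem ht)
      ((hg.2 t).1 ht))) (hg.1.2 _ h3)
    simpa [mul_assoc] using h4
  have htop' : autInducedBy H T ≤ E.autGroup T := by
    intro α hα
    obtain ⟨g, hg, e⟩ := mem_autInducedBy'.1 hα
    obtain ⟨f, hf, ef⟩ := receptive_extend (R := T) (sat_receptive_of_fullyNormalized hTp hEs hPfn)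
      ((hK g).1 (hHK hg.1)).2 (hPimg g) fun t ht =>
        ⟨⟨ht, hN t⟩, g * t * g⁻¹, (hg.2 t).1 ht, fun x _ => by group⟩
    obtain ⟨β, hβ, eβ⟩ := hf.exists_aut' fun x hx => hf.mem hx
    obtain ⟨k, hk, ek⟩ := mem_autInducedBy.1 (htop hβ)
    have h1 : k⁻¹ * g ∈ T := hCH _ (H.mul_mem (H.inv_mem hk) hg.1) fun x hx => by
      calc k⁻¹ * g * x * (k⁻¹ * g)⁻¹ = k⁻¹ * (g * x * g⁻¹) * k := by group
        _ = x := by rw [← ef x hx, ← eβ x hx.2, ek x hx.2]; group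
    refine mem_autGroup_of_isMap ((isMap_afn le_rfl hβ).comp' (isMap_conj E le_rfl h1)
      fun x hx => T.mul_mem (T.mul_mem h1 hx) (T.inv_mem h1)) fun x hx => ?_
    rw [e x hx, ek _ (T.mul_mem (T.mul_mem h1 hx) (T.inv_mem h1))]
    group
  have hD := isNormalIn_group S H hTH hT
  have hEH : E = fusionSystemOfSubgroup H T hTH := fs_le_antisymm
    (le_of_sInv_of_top hTp hEs (Inv.sub hI) (Inv.sInv hD.1.2.2)
      (by rwa [autGroup_ofSubgroup hTH le_rfl]))
    (le_of_sInv_of_top hTp hD.1.1 (Inv.sub hD.1.2.2) (Inv.sInv hI)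
      (by rwa [autGroup_ofSubgroup hTH le_rfl]))
  refine ⟨H, hTH, hHn, hT, hEH, fun H' hTH' hH'n hT' hE' => ?_⟩
  have h1 : H' ≤ K := fun g hg => (hK g).2 ⟨hcomm H' hH'n hT' g hg, hE' ▸
    isMap_ofSubgroup_conj hTH' hPT hg fun x hx => (hPn.conj_mem x hx g).2⟩
  have h2 : H' ≤ H := fun g hg => by
    obtain ⟨o, ho, b, hb, -, rfl⟩ := ((sylIn_top S).inf_normal le_top le_top
      fun g _ n hn => hH'n.conj_mem n hn g).exists_opSub_mul hg
    exact H.mul_mem (Subgroup.mem_sup_right (opSub_mono p h1 ho)) (hTH (hT' ▸ hb))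
  refine le_antisymm h2 fun g hg => ?_
  obtain ⟨-, -, k, hk, e⟩ := (isMap_ofSubgroup_iff hTH').1 (hE' ▸ ((hK g).1 (hHK hg)).2)
  refine (H'.mul_mem_cancel_left (H'.inv_mem hk)).1 (hTH' (hCH _
    (H.mul_mem (H.inv_mem (h2 hk)) hg) fun x hx => ?_))
  calc k⁻¹ * g * x * (k⁻¹ * g)⁻¹ = k⁻¹ * (g * x * g⁻¹) * k := by group
    _ = x := by rw [e x hx]; group

end Cfsg.Agent.Fus
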