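import Mathlib
import Cfsg.Agent.Fus.CentE
import Cfsg.Agent.Fus.MeetMax

/-!
# The full subsystem on a strongly closed `T` with `S = T C_S(T)`
-/

set_option autoImplicit false

namespace Cfsg.Agent.Fus

open Cfsg Cfsg.FusionSystem

variable {Ω : Type*} [Group Ω] {S T : Subgroup Ω} {F : FusionSystem S} {P : Subgroup Ω}
  {f : Ω → Ω} {p : ℕ}

theorem isMap_resSys_of_sc (hT : F.StronglyClosed T) (hf : IsMap F P f) (hP : P ≤ T) :
    IsMap (resSys F T hT.1) P f :=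
  isMap_resSys.2 ⟨hP, hf, fun _ hx => hf.mem_of_stronglyClosed hT hx (hP hx)⟩

theorem resSys_saturated (hF : F.IsSaturated p) (hT : F.StronglyClosed T)
    (h : ∀ s ∈ S, ∃ t ∈ T, ∀ x ∈ T, s * x * s⁻¹ = t * x * t⁻¹) :
    (resSys F T hT.1).IsSaturated p := by
  intro P hP
  obtain ⟨Q, hPQ, h1, h2⟩ := hF P (hP.trans hT.1)
  have hQ := le_of_isConj_of_stronglyClosed hT hP hPQ
  obtain ⟨f, hf, rfl⟩ := isConj_iff.1 hPQ
  refine ⟨_, (isMap_resSys_of_sc hT hf hP).isConj, fullyAutomized_iff.2 ⟨hQ, ?_⟩,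
    isReceptive_iff.2 ⟨hQ, fun R g hg hi => ?_⟩⟩
  · rw [autGroup_resSys F hT.1 hQ]
    suffices autInducedBy T (img P f) = autInducedBy S (img P f) from this ▸ h1.2
    refine Subgroup.ext fun α => ?_
    rw [mem_autInducedBy, mem_autInducedBy]
    refine ⟨fun ⟨t, ht, e⟩ => ⟨t, hT.1 ht, e⟩, fun ⟨s, hs, e⟩ => ?_⟩
    obtain ⟨t, ht, e'⟩ := h s hs
    exact ⟨t, ht, fun x hx => by rw [e x hx, e' x (hQ hx)]⟩
  · obtain ⟨k, hk, e⟩ := IsReceptive_extend h2 (hg.of_sub (resSys_sub F hT.1)) hi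
    exact ⟨k, isMap_resSys_of_sc hT (hk.mono fun a ha => ⟨⟨hT.1 ha.1.1, ha.1.2⟩,
      ha.2.imp fun _ hh => ⟨hT.1 hh.1, hh.2⟩⟩) Nf_le, e⟩

theorem resSys_weaklyNormal [Fact p.Prime] [Finite S] (hS : IsPGroup p S) (hF : F.IsSaturated p)
    (hT : F.StronglyClosed T) (h : ∀ s ∈ S, ∃ t ∈ T, ∀ x ∈ T, s * x * s⁻¹ = t * x * t⁻¹) :
    (resSys F T hT.1).IsWeaklyNormalIn F p :=
  ⟨resSys_saturated hF hT h, hF, isInvariantIn_of_sInv hS hF hT (resSys_sub F hT.1)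
    ((sInv_self F).resSys hT hT.1)⟩

end Cfsg.Agent.Fus
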