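import Mathlib
import Cfsg.Agent.Fus.ResEnv
import Cfsg.Agent.Fus.CompCons
import Cfsg.Agent.Fus.InnerNormal
import Cfsg.Agent.Fus.ModelSolv
import Cfsg.Agent.Fus.Model

/-! Terminating residual series and `p`-solvable models. -/

set_option autoImplicit false

namespace Cfsg.Agent.Fus

open Cfsg Cfsg.FusionSystem

universe u

theorem isPSolvable_of_normal_le {G : Type*} [Group G] {p : ℕ} [hp : Fact p.Prime]
    {A B : Subgroup G} [Finite A] (hn : ∀ a ∈ A, ∀ b ∈ B, b ∈ A → a * b * a⁻¹ ∈ B)
    (hB : IsPSolvable p B) (h : (∀ a ∈ A, (orderOf a).Coprime p → a ∈ B) ∨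
      ∀ a ∈ A, a ^ p ∈ B → a ∈ B) : IsPSolvable p A := by
  have : (B.subgroupOf A).Normal := ⟨fun b hb a => hn a a.2 b hb b.2⟩
  refine PLocal.isPSolvable_of_normal_of_quotient (B.subgroupOf A)
    (PLocal.IsPSolvable.subgroupOf hB A) ?_
  rcases h with h | h
  · refine PLocal.isPSolvable_of_isPGroup (IsPGroup.of_equiv (isPGroup_of_coprime_eq_one
      (A := ⊤) fun q _ hq => ?_) Subgroup.topEquiv)
    obtain ⟨a, rfl⟩ := QuotientGroup.mk'_surjective _ q
    obtain ⟨k, h1, h2⟩ := exists_pow_coprime_map (QuotientGroup.mk' (B.subgroupOf A)) a hq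
    rw [← h1]
    exact (QuotientGroup.eq_one_iff _).2 (h _ (a ^ k).2 (by rwa [← Subgroup.orderOf_coe] at h2))
  · refine PLocal.isPSolvable_of_coprime (hp.out.coprime_iff_not_dvd.2 fun hd => ?_).symm
    obtain ⟨q, hq⟩ := exists_prime_orderOf_dvd_card' p hd
    obtain ⟨a, rfl⟩ := QuotientGroup.mk'_surjective _ q
    have h1 := pow_orderOf_eq_one (QuotientGroup.mk' (B.subgroupOf A) a)
    rw [hq, ← map_pow] at h1
    rw [show QuotientGroup.mk' (B.subgroupOf A) a = 1 from (QuotientGroup.eq_one_iff _).2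
      (h a a.2 ((QuotientGroup.eq_one_iff (a ^ p)).1 h1)), orderOf_one] at hq
    exact hp.out.one_lt.ne hq

variable {Ω : Type u} [Group Ω] {p : ℕ} [hp : Fact p.Prime]

section
variable {S T : Subgroup Ω} {F : FusionSystem S} {E : FusionSystem T} [Finite S]

theorem ppRes_ppRes (hS : IsPGroup p S) (hF : F.IsSaturated p) : ppRes p (ppRes p F) = ppRes p F :=
  ext_isMap fun _ _ => ⟨le_iff_isMap.1 (ppRes_le p _) _ _, le_iff_isMap.1
    (ppRes_le_of_weaklyNormal hS (isNormalIn_self hF).1
      (ppRes_weaklyNormal hS (ppRes_normal hS hF).1)) _ _⟩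

theorem isPSolvable_core_of_pIndex (hS : IsPGroup p S) (hE : E.IsWeaklyNormalIn F p)
    (hi : E.HasPPowerIndexIn F p) (h : IsPSolvable p (E.autGroup E.core)) :
    IsPSolvable p (F.autGroup F.core) := by
  have hQ := core_le F
  have := finite_of_le hQ
  have hT := Inv.sc hE.2.2
  have := finite_of_le hT.1
  have := finite_of_le (inf_le_left.trans hQ : F.core ⊓ T ≤ S)
  rw [core_eq_inf_of_weaklyNormal hS hE] at h
  refine isPSolvable_of_normal_le (B := opSub p (F.autGroup F.core))
    (fun a ha b hb _ => conj_mem_opSub ha hb) ?_ (Or.inl fun a ha hc => mem_opSub_of_coprime ha hc)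
  have h1 : opSub p (F.autGroup F.core) ≤ stab F.core (F.core ⊓ T) := (opSub_le p _).trans
    fun α hα => mem_stab_of_maps inf_le_left fun x hx =>
      ⟨afn_mem α hx.1, (isMap_afn hQ hα).mem_of_stronglyClosed hT hx.1 hx.2⟩
  have h2 : opSub p (F.autGroup F.core) ≤
      trivMod F.core T ⊓ autRes F.core _ inf_le_left (E.autGroup (F.core ⊓ T)) :=
    opSub_le_iff.2 fun α hα hc => by
      obtain ⟨a, b⟩ := isMap_inf_of_pIndex hi hQ hα hc
      exact ⟨a, b.exists_aut' fun x hx => ⟨afn_mem α hx.1, b.mem hx⟩⟩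
  refine PLocal.isPSolvable_of_ker_of_range ((resAut inf_le_left).comp (Subgroup.inclusion h1))
    (PLocal.isPSolvable_of_isPGroup fun ⟨α, hα⟩ => ?_) (PLocal.IsPSolvable.of_le h ?_)
  · obtain ⟨k, hk⟩ := isPGroup_cenMod (isPGroup_of_le hS hQ) T ⟨α, fun x hx hxT => by
      have := afn_resAut inf_le_left (Subgroup.inclusion h1 α) (x := x) ⟨hx, hxT⟩
      rw [show resAut inf_le_left (Subgroup.inclusion h1 α) = 1 from hα, afn_one] at this
      exact this.symm, (h2 α.2).1⟩
    have hk' : (α : MulAut F.core) ^ p ^ k = 1 := congrArg Subtype.val hk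
    exact ⟨k, Subtype.ext (Subtype.ext hk')⟩
  · rintro _ ⟨α, rfl⟩
    obtain ⟨β, hβ, e⟩ := (h2 α.2).2
    rwa [show (resAut inf_le_left).comp (Subgroup.inclusion h1) α = β from
      aut_ext fun x hx => (afn_resAut inf_le_left _ hx).trans (e x hx).symm]

theorem isPSolvable_core_of_top (hS : IsPGroup p S) {D : FusionSystem S}
    (hD : D.IsWeaklyNormalIn F p) (h : IsPSolvable p (D.autGroup D.core)) :
    IsPSolvable p (F.autGroup F.core) := by
  have hQ := core_le F
  have := finite_of_le hQ
  rw [core_eq_inf_of_weaklyNormal hS hD, inf_eq_left.2 hQ] at h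
  have hn := fun a ha b hb (_ : b ∈ F.autGroup F.core) =>
    (Inv.sInv hD.2.2).conj_mem le_rfl hQ (γ := a) (κ := b) ha hb
  exact isPSolvable_of_normal_le hn h (Or.inr fun a ha h1 =>
    (sylIn_autInducedBy_of_isNormal hS hD.2.1 (isNormal_core F)).mem_of_pow_mem
      (autInducedBy_le_autGroup D hQ) hn ha (n := 1) (by rwa [pow_one]))

end

omit hp in
theorem constrained_of_terminating {S : Subgroup Ω} {F : FusionSystem S}
    (h : F.HasTerminatingResidualSeries p) : Fact p.Prime → Finite S → IsPGroup p S → F.IsSaturated p →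
      F.IsConstrained p ∧ IsPSolvable p (F.autGroup F.core) := by
  induction h with
  | trivial F p h =>
    subst h
    intro _ _ _ hF
    have : Subsingleton F.core := ⟨fun a b => Subtype.ext
      ((core_le F a.2).trans (core_le F b.2).symm)⟩
    have : Subsingleton (MulAut F.core) := ⟨fun a b => MulEquiv.ext fun _ => Subsingleton.elim _ _⟩
    exact ⟨⟨hF, ⊥, isNormal_bot F, isCentric_top F⟩, PLocal.isPSolvable_of_subsingleton⟩
  | step F E p D h1 h2 _ ih =>
    intro hp _ hS hF
    obtain rfl := eq_ppRes hS hF h1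
    have hE := ppRes_normal hS hF
    have hD := isPResidual_normal_of_normal hS hE h2
    have := finite_of_le (hyp_le (ppRes p F) p)
    obtain ⟨a, b⟩ := ih hp this (isPGroup_of_le hS (hyp_le _ p)) h2.1
    refine ⟨isConstrained_of_no_component hS hF fun R C hC => not_component_of_constrained
      (isPGroup_of_le hS (hyp_le _ p)) a (component_of_le hS hC hD.1 ?_),
      isPSolvable_core_of_top hS hE.1 (isPSolvable_core_of_pIndex hS
        (isPResidual_normal hS h1.1 h2).1 h2.2 b)⟩
    exact hC.2.2.1.ge.trans (hyp_mono (IsSubnormalIn_sub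
      (component_of_le hS hC hE.1 (IsSubnormalIn_le hC.1)).1) p)

theorem exists_resLimit {S : Subgroup Ω} [Finite S] (hS : IsPGroup p S) {F : FusionSystem S}
    (hF : F.IsSaturated p) : ∃ (V : Subgroup Ω) (L : FusionSystem V), L.IsResidualLimitOf F p := by
  have key : ∀ n, ∀ (S : Subgroup Ω) (F : FusionSystem S), Finite S → Nat.card S = n →
      IsPGroup p S → F.IsSaturated p → ppRes p F = F →
      ∃ (V : Subgroup Ω) (L : FusionSystem V), L.IsResidualLimitOf F p := by
    intro n
    induction n using Nat.strong_induction_on with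
    | _ n ih =>
      rintro S F _ rfl hS hF e
      rcases (hyp_le F p).eq_or_lt with h | h
      · exact ⟨S, F, .stable F p h (by simpa [e] using isPPrimeResidual_ppRes hS hF)⟩
      · obtain ⟨D, hD⟩ := exists_isPResidual hS hF
        have := finite_of_le h.le
        have hH := isPGroup_of_le hS h.le
        obtain ⟨V, L, hL⟩ := ih _ (card_lt_of_lt_of_le h le_rfl) _ _ this rfl hH
          (ppRes_saturated hH hD.1) (ppRes_ppRes hH hD.1)
        exact ⟨V, L, .step F p D _ hD (isPPrimeResidual_ppRes hH hD.1) hL⟩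
  obtain ⟨D, hD⟩ := exists_isPResidual hS hF
  have := finite_of_le (hyp_le F p)
  have hH := isPGroup_of_le hS (hyp_le F p)
  obtain ⟨V, L, hL⟩ := key _ _ _ this rfl hH (ppRes_saturated hH hD.1) (ppRes_ppRes hH hD.1)
  exact ⟨V, L, .step F p D _ hD (isPPrimeResidual_ppRes hH hD.1) hL⟩

theorem terminating_of_stable {S : Subgroup Ω} [Finite S] (hS : IsPGroup p S) {F : FusionSystem S}
    (hF : F.IsSaturated p) (h : ∀ (R : Subgroup Ω) (C : FusionSystem R),
      C.hyperfocalSubgroup p = R → ppRes p C = C → C.IsSubnormalIn F p → R = ⊥) :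
    F.HasTerminatingResidualSeries p := by
  induction hn : Nat.card S using Nat.strong_induction_on generalizing S with
  | _ n ih =>
    subst hn
    have hE := ppRes_normal hS hF
    rcases (hyp_le (ppRes p F) p).eq_or_lt with e | e
    · exact .trivial F p (h _ _ e (ppRes_ppRes hS hF) (IsSubnormalIn_of_normal hE))
    · obtain ⟨D, hD⟩ := exists_isPResidual hS hE.1.1
      have := finite_of_le e.le
      exact .step F _ p D (isPPrimeResidual_ppRes hS hF) hD (ih _ (card_lt_of_lt_of_le e le_rfl)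
        (isPGroup_of_le hS e.le) hD.1 (fun R C a b c => h R C a b (IsSubnormalIn_trans c
          (IsSubnormalIn_of_normal (isPResidual_normal_of_normal hS hE hD)))) rfl)

theorem terminating_of_constrained {S : Subgroup Ω} [Finite S] (hS : IsPGroup p S)
    {F : FusionSystem S} (hF : F.IsConstrained p) (h : IsPSolvable p (F.autGroup F.core)) :
    F.HasTerminatingResidualSeries p := by
  have hE := isNormalIn_inner_of_isNormal hS hF.1 (isNormal_core F)
  have := finite_of_le (core_le F)
  have : (((innerFusionSystem F.core).autGroup F.core).subgroupOf (F.autGroup F.core)).Normal :=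
    ⟨fun b hb a => (Inv.sInv hE.1.2.2).conj_mem (core_le F) le_rfl a.2 hb⟩
  obtain ⟨D, -, -, -, h4⟩ := exists_envelope hS hE (PLocal.IsPSolvable.quotient h _)
  obtain ⟨V, L, hL⟩ := exists_resLimit hS hF.1
  obtain ⟨-, b, -, -, e⟩ := resLimit_spec hL hp ‹_› hS hF.1
  have h1 := hyp_mono (IsSubnormalIn_sub (resLimit_subnormal_of_le hS hL hE.1
    ((h4 V L hL).trans (sup_le le_rfl (isConstrained_iff_core.1 hF).2)))) p
  rw [b, hyp_inner _ (isPGroup_of_le hS (core_le F))] at h1
  exact terminating_of_stable hS hF.1 fun R C a b c =>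
    le_bot_iff.1 ((le_of_isSubsystemOf (e C a b c)).trans h1)

end Cfsg.Agent.Fus
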