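import Mathlib
import Cfsg.Agent.PLocal.QdStable

/-!
A simple module generated by two quadratic elements, `p` odd: natural `SL(2, p)`-submodule whose Borel subgroup
lies in a proper subgroup containing the first quadratic element.
-/

set_option autoImplicit false

namespace Cfsg.Agent.Fus.ZJF

open Polynomial Matrix Cfsg.Agent.PLocal
open scoped MatrixGroups

variable {p : ℕ} [hp : Fact p.Prime]

/-- A `p`-subgroup of `SL(2, K)` fixes a nonzero vector. -/
theorem exists_fixed_vec {K : Type*} [Field K] [Finite K] [CharP K p] (P : Subgroup SL(2, K))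
    (hP : IsPGroup p P) : ∃ w : Fin 2 → K, w ≠ 0 ∧ ∀ g ∈ P, g.1 *ᵥ w = w := by
  classical
  let _ : MulAction P (Fin 2 → K) :=
    { smul := fun g v => g.1.1 *ᵥ v
      one_smul := fun v => by change (1 : Matrix (Fin 2) (Fin 2) K) *ᵥ v = v; simp
      mul_smul := fun g h v => by
        change (g.1.1 * h.1.1) *ᵥ v = g.1.1 *ᵥ (h.1.1 *ᵥ v)
        rw [mulVec_mulVec] }
  have hc : p ∣ Nat.card (Fin 2 → K) := by
    have := Fintype.ofFinite K
    obtain ⟨n, -, hn⟩ := FiniteField.card K p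
    rw [Nat.card_fun, Nat.card_eq_fintype_card (α := K), hn]
    exact dvd_pow (dvd_pow_self p n.ne_zero) (by simp)
  have h0 : (0 : Fin 2 → K) ∈ MulAction.fixedPoints P (Fin 2 → K) := fun g => by
    change g.1.1 *ᵥ (0 : Fin 2 → K) = 0
    simp
  obtain ⟨b, hb, hne⟩ := hP.exists_fixed_point_of_prime_dvd_card_of_fixed_point (Fin 2 → K) hc h0
  exact ⟨b, hne.symm, fun g hg => hb ⟨g, hg⟩⟩

/-- An embedding of `SL(2, p)` into a finite subgroup of `SL(2, K)` containing an upper transvection may be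
conjugated so that the upper transvection fixes the first basis vector. -/
theorem exists_emb_fix {K : Type*} [Field K] [Finite K] [CharP K p] (R : Subgroup SL(2, K)) {a : SL(2, K)}
    {l : K} (hl : l ≠ 0) (ha : a.1 = !![1, l; 0, 1]) (haR : a ∈ R) {S : Subgroup SL(2, K)} (hS : S ≤ R)
    (e : S ≃* SL(2, ZMod p)) :
    ∃ τ : SL(2, ZMod p) →* SL(2, K), Function.Injective τ ∧ τ.range ≤ R ∧
      (τ (sl2U p)).1 *ᵥ Pi.single 0 1 = Pi.single 0 1 := by
  classical
  let τ₀ : SL(2, ZMod p) →* SL(2, K) := S.subtype.comp e.symm.toMonoidHom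
  have hτ₀ : Function.Injective τ₀ := S.subtype_injective.comp e.symm.injective
  have hτR : ∀ A, τ₀ A ∈ R := fun A => hS (e.symm A).2
  have hap : ∃ k, a ^ p ^ k = 1 := pow_eq_one_of_sl2_sub_one_sq a (by
    rw [ha]; ext i j; fin_cases i <;> fin_cases j <;> simp [pow_two, mul_apply, Fin.sum_univ_two, Matrix.sub_apply])
  have h1 : IsPGroup p (Subgroup.zpowers (⟨a, haR⟩ : R)) := by
    obtain ⟨k, hk⟩ := hap
    rw [isPGroup_subgroup_iff]
    rintro _ ⟨n, rfl⟩
    refine ⟨k, ?_⟩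
    have : (⟨a, haR⟩ : R) ^ p ^ k = 1 := Subtype.ext hk
    simp only
    rw [← zpow_natCast, ← _root_.zpow_mul, mul_comm, _root_.zpow_mul, zpow_natCast, this, _root_.one_zpow]
  have h2 : IsPGroup p (Subgroup.zpowers (⟨τ₀ (sl2U p), hτR _⟩ : R)) := by
    rw [isPGroup_subgroup_iff]
    rintro _ ⟨n, rfl⟩
    refine ⟨1, ?_⟩
    have : (⟨τ₀ (sl2U p), hτR _⟩ : R) ^ p ^ 1 = 1 := Subtype.ext (by
      change τ₀ (sl2U p) ^ p ^ 1 = 1
      rw [pow_one, ← map_pow, sl2U_pow, map_one])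
    simp only
    rw [← zpow_natCast, ← _root_.zpow_mul, mul_comm, _root_.zpow_mul, zpow_natCast, this, _root_.one_zpow]
  obtain ⟨P, hP⟩ := h1.exists_le_sylow
  obtain ⟨P', hP'⟩ := h2.exists_le_sylow
  obtain ⟨g, hg⟩ := MulAction.exists_smul_eq R P' P
  have hu : g * ⟨τ₀ (sl2U p), hτR _⟩ * g⁻¹ ∈ (P : Subgroup R) := by
    rw [← hg, Sylow.coe_subgroup_smul]
    exact ⟨_, hP' (Subgroup.mem_zpowers _), rfl⟩
  obtain ⟨w, hw0, hw⟩ := exists_fixed_vec ((P : Subgroup R).map R.subtype) (P.isPGroup'.map _)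
  have hw1 := hw a ⟨_, hP (Subgroup.mem_zpowers _), rfl⟩
  have hw2 := hw _ ⟨_, hu, rfl⟩
  have hw3 : w 1 = 0 := by
    have := congrFun hw1 0
    rw [ha] at this
    simp [mulVec, dotProduct, Fin.sum_univ_two] at this
    exact this.resolve_left hl
  have hw4 : w 0 ≠ 0 := by
    intro h
    apply hw0
    ext i; fin_cases i
    · exact h
    · exact hw3
  have hw5 : (Pi.single 0 1 : Fin 2 → K) = (w 0)⁻¹ • w := by
    ext i; fin_cases i
    · simp [hw4]
    · simp [hw3]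
  refine ⟨(MulAut.conj (g : SL(2, K))).toMonoidHom.comp τ₀, (MulAut.conj (g : SL(2, K))).injective.comp hτ₀,
    ?_, ?_⟩
  · rintro _ ⟨A, rfl⟩
    exact R.mul_mem (R.mul_mem g.2 (hτR A)) (R.inv_mem g.2)
  · rw [hw5, mulVec_smul]
    congr 1

variable {W : Type*} [AddCommGroup W] [Module (ZMod p) W] [FiniteDimensional (ZMod p) W]

theorem exists_borel_natural (hp2 : p ≠ 2) {Γ : Type*} [Group Γ] [Finite Γ]
    (ρ : Γ →* Module.End (ZMod p) W) (a b : Γ)
    (hab : ∀ g, ∃ d ∈ Subgroup.closure ({a, b} : Set Γ), ρ g = ρ d)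
    (ha : (ρ a - 1) ^ 2 = 0) (hb : (ρ b - 1) ^ 2 = 0)
    (hs : ∀ U : Submodule (ZMod p) W, (∀ g, ∀ w ∈ U, ρ g w ∈ U) → U = ⊥ ∨ U = ⊤)
    (hnu : ¬ ∀ h ∈ Subgroup.closure ({a, b} : Set Γ), ∃ k, ρ h ^ p ^ k = 1) :
    ∃ X : Subgroup Γ, X ≠ ⊤ ∧ a ∈ X ∧ ρ.ker ≤ X ∧
      ∃ (E : Subgroup Γ) (θ : E →* SL(2, ZMod p)) (T : (Fin 2 → ZMod p) →ₗ[ZMod p] W),
        Function.Surjective θ ∧ Function.Injective T ∧ (∀ (h : E) v, ρ h (T v) = T ((θ h).1 *ᵥ v)) ∧
        (∀ h : E, (θ h).1 1 0 = 0 → (h : Γ) ∈ X) ∧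
        ∀ h : E, ρ h * ρ h - (θ h).1.trace • ρ h + 1 = 0 := by
  classical
  rcases subsingleton_or_nontrivial W with hW | hW
  · exact absurd (fun h _ => ⟨0, Subsingleton.elim _ _⟩) hnu
  set D := Subgroup.closure ({a, b} : Set Γ) with hD
  let a' : D := ⟨a, Subgroup.subset_closure (by simp)⟩
  let b' : D := ⟨b, Subgroup.subset_closure (by simp)⟩
  have hab' : Subgroup.closure {a', b'} = ⊤ := closure_pair_subtype a b
  let f : (ZMod p)[X] := X ^ orderOf (a' * b') - 1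
  let K := f.SplittingField
  have : Finite K := Module.finite_of_finite (ZMod p)
  have : CharP K p := charP_of_injective_algebraMap (algebraMap (ZMod p) K).injective p
  obtain ⟨Ψ, hΨ, hdesc⟩ := exists_end_ringHom_descent (ZMod p) K W
  let σ : Γ →* Module.End K (Fin (Module.finrank (ZMod p) W) → K) := Ψ.toMonoidHom.comp ρ
  let ρ' : D →* Module.End K (Fin (Module.finrank (ZMod p) W) → K) := σ.comp D.subtype
  have hσ : ∀ h, σ h = Ψ (ρ h) := fun _ => rfl
  have hρ' : ∀ h : D, ρ' h = Ψ (ρ h) := fun _ => rfl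
  have ha' : (ρ' a' - 1) ^ 2 = 0 := by rw [hρ', ← map_one Ψ, ← map_sub, ← map_pow, ha, map_zero]
  have hb' : (ρ' b' - 1) ^ 2 = 0 := by rw [hρ', ← map_one Ψ, ← map_sub, ← map_pow, hb, map_zero]
  have hsplit : (X ^ orderOf (a' * b') - 1 : K[X]).Splits := by
    simpa [f] using SplittingField.splits f
  have hne : (X ^ orderOf (a' * b') - 1 : K[X]) ≠ 0 := by
    simpa using X_pow_sub_C_ne_zero (orderOf_pos (a' * b')) (1 : K)
  have hz : aeval (ρ' (a' * b')) (X ^ orderOf (a' * b') - 1 : K[X]) = 0 := by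
    simp only [map_sub, map_pow, aeval_X, map_one]
    rw [← map_pow, pow_orderOf_eq_one, map_one, sub_self]
  rcases isNilpotent_or_exists_eigenvalue _ _ hne hsplit hz with h | ⟨μ, hμ, hev⟩
  · exfalso
    apply hnu
    intro g hg
    have h1 := isNilpotent_sub_one_of_two_quadratic ρ' a' b' hab' ha' hb' h ⟨g, hg⟩
    have : CharP (Module.End (ZMod p) W) p :=
      charP_of_injective_algebraMap (algebraMap (ZMod p) _).injective p
    refine exists_pow_eq_one_of_isNilpotent p ?_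
    obtain ⟨n, hn⟩ := h1
    refine ⟨n, hΨ ?_⟩
    rw [map_pow, map_sub, map_one, map_zero]
    exact hn
  obtain ⟨l, φ, ι, hl, hφa, hφb, hι, hequiv⟩ := exists_hom_sl2_of_eigenvalue ρ' a' b' hab' ha' hb' μ hμ hev
  have := Fintype.ofFinite K
  obtain ⟨S, hS, ⟨e⟩⟩ := exists_sl2_le_range hp2 hab' φ hl hφa hφb
  obtain ⟨τ, hτ, hτR, hτU⟩ := exists_emb_fix φ.range hl hφa ⟨a', rfl⟩ hS e
  obtain ⟨j, hj0, hj⟩ := exists_natural_form τ hτ
  set e1 : Fin 2 → K := Pi.single 0 1 with he1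
  -- the stabilizer of the line
  let Xs : Subgroup Γ :=
    { carrier := {g | ∃ c : K, σ g (ι e1) = c • ι e1}
      one_mem' := ⟨1, by simp⟩
      mul_mem' := by
        rintro x y ⟨c, hc⟩ ⟨d, hd⟩
        exact ⟨d * c, by rw [map_mul, Module.End.mul_apply, hd, map_smul, hc, smul_smul]⟩
      inv_mem' := by
        rintro x ⟨c, hc⟩
        have h1 : c • σ x⁻¹ (ι e1) = ι e1 := by
          rw [← map_smul, ← hc, ← Module.End.mul_apply, ← map_mul, inv_mul_cancel, map_one]; rfl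
        have hc0 : c ≠ 0 := by
          rintro rfl
          rw [zero_smul] at h1
          have := congrFun (hι (h1.symm.trans (map_zero ι).symm)) 0
          simp [he1] at this
        exact ⟨c⁻¹, by rw [eq_inv_smul_iff₀ hc0, h1]⟩ }
  have hXD : ∀ d : D, (d : Γ) ∈ Xs ↔ ∃ c : K, (φ d).1 *ᵥ e1 = c • e1 := by
    intro d
    refine exists_congr fun c => ?_
    change ρ' d (ι e1) = c • ι e1 ↔ _
    rw [hequiv, ← map_smul, hι.eq_iff]
  -- the form `j`
  have hU1 : (sl2U p).1 *ᵥ (Pi.single 0 1 : Fin 2 → ZMod p) = Pi.single 0 1 := by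
    rw [coe_sl2U]; ext i; fin_cases i <;> simp
  have hU2 : (sl2U p).1 *ᵥ (Pi.single 1 1 : Fin 2 → ZMod p) = Pi.single 1 1 - Pi.single 0 1 := by
    rw [coe_sl2U]; ext i; fin_cases i <;> simp
  have hdec : ∀ v : Fin 2 → K, v = v 0 • e1 + v 1 • Pi.single 1 1 := by
    intro v; ext i; fin_cases i <;> simp [he1]
  have hj1 : j (Pi.single 0 1) 1 = 0 := by
    by_contra h1
    have h2 := hj (sl2U p) (Pi.single 0 1)
    rw [hU1, hdec (j (Pi.single 0 1)), mulVec_add, mulVec_smul, mulVec_smul, hτU, add_right_inj] at h2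
    have h3 := smul_right_injective _ h1 h2
    apply sl2U_ne_one p
    apply hτ
    rw [map_one]
    apply Subtype.ext
    apply Matrix.toLin'.injective
    refine LinearMap.ext fun v => ?_
    rw [toLin'_apply, toLin'_apply, hdec v, mulVec_add, mulVec_smul, mulVec_smul, hτU, h3]
    simp
  have hj2 : j (Pi.single 0 1) = j (Pi.single 0 1) 0 • e1 := by
    conv_lhs => rw [hdec (j (Pi.single 0 1)), hj1, zero_smul, add_zero]
  have hj3 : j (Pi.single 0 1) 0 ≠ 0 := fun h => hj0 (by rw [hj2, h, zero_smul])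
  have hj4 : j (Pi.single 1 1) 1 ≠ 0 := by
    intro h1
    have h2 := hj (sl2U p) (Pi.single 1 1)
    rw [hU2, map_sub, hdec (j (Pi.single 1 1)), h1, zero_smul, add_zero, mulVec_smul, hτU] at h2
    exact hj0 (by simpa using h2.symm)
  have hspan : ∀ v : Fin 2 → K, ∃ α β : K, v = α • j (Pi.single 0 1) + β • j (Pi.single 1 1) := by
    intro v
    refine ⟨(v 0 - v 1 / j (Pi.single 1 1) 1 * j (Pi.single 1 1) 0) / j (Pi.single 0 1) 0,
      v 1 / j (Pi.single 1 1) 1, ?_⟩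
    ext i; fin_cases i
    · simp only [Fin.zero_eta, Pi.add_apply, Pi.smul_apply, smul_eq_mul, Fin.isValue]
      rw [div_mul_cancel₀ _ hj3, sub_add_cancel]
    · simp only [Fin.mk_one, Pi.add_apply, Pi.smul_apply, smul_eq_mul, Fin.isValue, hj1]
      rw [div_mul_cancel₀ _ hj4, mul_zero]
      exact (zero_add _).symm
  let θ₀ : τ.range.comap φ →* SL(2, ZMod p) :=
    (MonoidHom.ofInjective hτ).symm.toMonoidHom.comp (φ.subgroupComap τ.range)
  have hθ₀ : Function.Surjective θ₀ := by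
    simp only [θ₀, MonoidHom.coe_comp]
    refine (MonoidHom.ofInjective hτ).symm.surjective.comp ?_
    rintro ⟨s, hs⟩
    obtain ⟨x, rfl⟩ := hτR hs
    exact ⟨⟨x, hs⟩, rfl⟩
  have hθφ : ∀ h : τ.range.comap φ, τ (θ₀ h) = φ h := by
    intro h
    exact MonoidHom.apply_ofInjective_symm hτ _
  obtain ⟨P, hP0, hP⟩ := hdesc (ι (j (Pi.single 0 1))) (fun h0 => hj0 (hι (by rw [h0, map_zero])))
  let T : (Fin 2 → ZMod p) →ₗ[ZMod p] W := P ∘ₗ (ι.restrictScalars (ZMod p)) ∘ₗ j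
  have hT : ∀ v, T v = P (ι (j v)) := fun _ => rfl
  have hact : ∀ (h : τ.range.comap φ) v, ρ (h : D) (T v) = T ((θ₀ h).1 *ᵥ v) := by
    intro h v
    rw [hT, hT, ← hP, ← hρ', hequiv, ← hθφ, hj]
  have hPι : ∀ w : W, ∃ v, P (ι v) = w := by
    have := hs (LinearMap.range (P ∘ₗ (ι.restrictScalars (ZMod p)))) (by
      rintro g _ ⟨v, rfl⟩
      obtain ⟨d, hd, e⟩ := hab g
      refine ⟨(φ ⟨d, hd⟩).1 *ᵥ v, ?_⟩
      change P (ι _) = ρ g (P (ι v))
      rw [e, ← hP, ← hequiv]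
      rfl)
    rcases this with h | h
    · exfalso
      apply hP0
      have : P (ι (j (Pi.single 0 1))) ∈ LinearMap.range (P ∘ₗ (ι.restrictScalars (ZMod p))) := ⟨_, rfl⟩
      rwa [h, Submodule.mem_bot] at this
    · intro w
      have : w ∈ LinearMap.range (P ∘ₗ (ι.restrictScalars (ZMod p))) := by rw [h]; trivial
      exact this
  have hCH : ∀ (A : SL(2, ZMod p)) (v : Fin 2 → K),
      (τ A).1 *ᵥ ((τ A).1 *ᵥ v) - A.1.trace • ((τ A).1 *ᵥ v) + v = 0 := by
    intro A v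
    have h1 : ∀ u : Fin 2 → ZMod p,
        (τ A).1 *ᵥ ((τ A).1 *ᵥ j u) - A.1.trace • ((τ A).1 *ᵥ j u) + j u = 0 := by
      intro u
      rw [hj, hj, ← map_smul, ← map_sub, ← map_add, mulVec_mulVec, mat2_sq_eq, A.2, sub_mulVec, smul_mulVec,
        one_smul, one_mulVec, sub_sub_cancel_left, neg_add_cancel, map_zero]
    obtain ⟨α, β, rfl⟩ := hspan v
    have h2 := congrArg (α • ·) (h1 (Pi.single 0 1))
    have h3 := congrArg (β • ·) (h1 (Pi.single 1 1))
    simp only [smul_zero] at h2 h3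
    have h4 := congrArg₂ (· + ·) h2 h3
    simp only [add_zero] at h4
    rw [← h4]
    simp only [mulVec_add, mulVec_smul, smul_add, smul_sub, smul_comm (A.1.trace)]
    abel
  let i := (Subgroup.equivMapOfInjective (τ.range.comap φ) _ D.subtype_injective).symm
  have hi : ∀ h : τ.range.comap φ, ((i.symm h : (τ.range.comap φ).map D.subtype) : Γ) = (h : D) :=
    fun _ => rfl
  refine ⟨Xs, ?_, ?_, ?_, (τ.range.comap φ).map D.subtype, θ₀.comp i.toMonoidHom, T,
    hθ₀.comp i.surjective, ?_, fun h v => ?_, fun h hh => ?_, fun h => ?_⟩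
  · intro h
    have : (b' : Γ) ∈ Xs := by rw [h]; trivial
    obtain ⟨c, hc⟩ := (hXD b').1 this
    have := congrFun hc 1
    rw [hφb] at this
    simp [he1] at this
  · refine (hXD a').2 ⟨1, ?_⟩
    rw [hφa]
    ext i; fin_cases i <;> simp [he1]
  · intro g hg
    refine ⟨1, ?_⟩
    rw [hσ, (MonoidHom.mem_ker).1 hg, map_one, one_smul]
    rfl
  · rw [injective_iff_map_eq_zero]
    intro v hv
    by_contra hv0
    obtain ⟨g, hg⟩ := exists_sl2_mulVec_eq_single hv0
    obtain ⟨h, rfl⟩ := hθ₀ g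
    apply hP0
    rw [← hT, ← hg, ← hact, hv, map_zero]
  · obtain ⟨h, rfl⟩ := i.symm.surjective h
    rw [hi, hact]
    simp
  · obtain ⟨h, rfl⟩ := i.symm.surjective h
    rw [hi, hXD]
    have hh' : (θ₀ h).1 1 0 = 0 := by simpa using hh
    refine ⟨algebraMap (ZMod p) K ((θ₀ h).1 0 0), ?_⟩
    have h1 := hj (θ₀ h) (Pi.single 0 1)
    have h2 : (θ₀ h).1 *ᵥ (Pi.single 0 1 : Fin 2 → ZMod p) = (θ₀ h).1 0 0 • Pi.single 0 1 := by
      ext i; fin_cases i <;> simp [hh']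
    rw [h2, map_smul, hθφ, hj2, mulVec_smul, smul_comm] at h1
    rw [algebraMap_smul]
    exact smul_right_injective _ hj3 h1
  · obtain ⟨h, rfl⟩ := i.symm.surjective h
    rw [hi]
    refine LinearMap.ext fun w => ?_
    obtain ⟨v, rfl⟩ := hPι w
    have h1 : ∀ v, ρ (h : D) (P (ι v)) = P (ι ((τ (θ₀ h)).1 *ᵥ v)) := by
      intro v
      rw [← hP, ← hρ', hequiv, hθφ]
    have h2 := congrArg (fun v => P (ι v)) (hCH (θ₀ h) v)
    simp only [map_add, map_sub, map_zero, LinearMap.map_smul_of_tower] at h2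
    simp only [LinearMap.add_apply, LinearMap.sub_apply, Module.End.mul_apply, LinearMap.smul_apply,
      Module.End.one_apply, LinearMap.zero_apply, h1]
    simpa using h2

end Cfsg.Agent.Fus.ZJF
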