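import Mathlib
import Cfsg.Prelude.Def_LocalEven
import Cfsg.Agent.Fus.ZJFMod
import Cfsg.Agent.PLocal.ElemAb
import Cfsg.Agent.PLocal.QdStruct

/-!
Sections `F(p)` from a natural `SL(2, p)`-module, and eigenvectors of the torus.
-/

set_option autoImplicit false

namespace Cfsg.Agent.Fus.ZJF

open Matrix Cfsg.Agent.PLocal
open scoped MatrixGroups Pointwise commutatorElement

variable {p : ℕ} [hp : Fact p.Prime]

/-- A natural `SL(2, p)`-module inside a finite group, `p` odd, gives a section `F(p)` inside any subgroup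
containing the module and the preimage of the Borel subgroup. -/
theorem exists_surjective_f_of_natural (hp2 : p ≠ 2) {G : Type*} [Group G] [Finite G] (E : Subgroup G)
    (θ : E →* SL(2, ZMod p)) (hθ : Function.Surjective θ)
    (T : (Fin 2 → ZMod p) → G) (hT : Function.Injective T)
    (hadd : ∀ v w, T (v + w) = T v * T w) (hact : ∀ (h : E) v, h * T v * (h : G)⁻¹ = T ((θ h).1 *ᵥ v))
    (Y : Subgroup G) (hTY : ∀ v, T v ∈ Y) (hEY : ∀ h : E, (θ h).1 1 0 = 0 → (h : G) ∈ Y) :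
    ∃ (K : Subgroup G) (ψ : K →* fOver (ZMod p)), K ≤ Y ∧ Function.Surjective ψ := by
  have hT0 : T 0 = 1 := by
    have := hadd 0 0
    rw [add_zero] at this
    exact left_eq_mul.1 this
  have hTneg : ∀ v, T (-v) = (T v)⁻¹ := fun v =>
    eq_inv_of_mul_eq_one_left (by rw [← hadd, neg_add_cancel, hT0])
  have hTpow : ∀ (n : ℕ) v, T (n • v) = T v ^ n := by
    intro n v
    induction n with
    | zero => simp [hT0]
    | succ n ih => rw [succ_nsmul, hadd, ih, pow_succ]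
  have h2 : (2 : ZMod p) ≠ 0 := by
    intro h
    have := (ZMod.natCast_eq_zero_iff 2 p).1 (by exact_mod_cast h)
    exact hp2 ((Nat.prime_dvd_prime_iff_eq Fact.out Nat.prime_two).1 this)
  let Z : Subgroup SL(2, ZMod p) := Subgroup.zpowers (-1)
  have hZ : ∀ z ∈ Z, z = 1 ∨ z = -1 := by
    rintro _ ⟨k, rfl⟩
    rcases Int.even_or_odd k with hk | hk
    · left; exact hk.neg_one_zpow
    · right; exact hk.neg_one_zpow
  have : Z.Normal := ⟨fun z hz g => by rcases hZ z hz with rfl | rfl <;> simp [Z]⟩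
  let C : Subgroup E := Z.comap θ
  obtain ⟨S⟩ : Nonempty (Sylow 2 C) := inferInstance
  let S' : Subgroup E := (S : Subgroup C).map C.subtype
  let N : Subgroup E := Subgroup.normalizer (S' : Set E)
  have hfr : N ⊔ C = ⊤ := S.normalizer_sup_eq_top
  obtain ⟨t, htS, ht⟩ : ∃ t ∈ S', θ t = -1 := by
    have hsurj : Function.Surjective (θ.subgroupComap Z) := θ.subgroupComap_surjective_of_surjective Z hθ
    have hZ2 : IsPGroup 2 Z := by
      rintro ⟨z, hz⟩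
      refine ⟨1, Subtype.ext ?_⟩
      rcases hZ z hz with rfl | rfl <;> simp
    have h3 : ((S.mapSurjective hsurj : Sylow 2 Z) : Subgroup Z) = ⊤ :=
      ((S.mapSurjective hsurj).is_maximal' (hZ2.to_subgroup ⊤) le_top).symm
    obtain ⟨t, ht, ht'⟩ : (⟨-1, Subgroup.mem_zpowers _⟩ : Z) ∈
        ((S.mapSurjective hsurj : Sylow 2 Z) : Subgroup Z) := by
      rw [h3]; trivial
    exact ⟨t, ⟨t, ht, rfl⟩, congrArg Subtype.val ht'⟩
  have hNsurj : ∀ A, ∃ n ∈ N, θ n = A := by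
    intro A
    obtain ⟨e, rfl⟩ := hθ A
    have he : e ∈ (N : Set E) * (C : Set E) := by rw [← Subgroup.mul_normal, hfr]; trivial
    obtain ⟨n, hn, c, hc, rfl⟩ := he
    rcases hZ _ hc with h | h
    · exact ⟨n, hn, by simp [h]⟩
    · exact ⟨n * t, N.mul_mem hn (Subgroup.le_normalizer htS), by simp [h, ht]⟩
  have hNT : ∀ n ∈ N, ∀ v, T v = n → v = 0 := by
    intro n hn v hv
    have h1 : n * t * n⁻¹ * t⁻¹ ∈ S' :=
      S'.mul_mem ((Subgroup.mem_normalizer_iff.1 hn t).1 htS) (S'.inv_mem htS)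
    have h3 : ((n * t * n⁻¹ * t⁻¹ : E) : G) = T (2 • v) := by
      have h4 := hact t (-v)
      rw [ht, hTneg] at h4
      simp only [Subgroup.coe_mul, Subgroup.coe_inv, ← hv, mul_assoc] at h4 ⊢
      rw [h4, two_nsmul, hadd]
      simp [neg_mulVec, mulVec_neg]
    obtain ⟨k, hk⟩ := (S.isPGroup'.map C.subtype) ⟨_, h1⟩
    have h5 : T (2 • v) ^ 2 ^ k = 1 := by
      rw [← h3, ← Subgroup.coe_pow, show (n * t * n⁻¹ * t⁻¹) ^ 2 ^ k = 1 from congrArg Subtype.val hk]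
      rfl
    rw [← hTpow, ← hT0, smul_smul, ← Nat.cast_smul_eq_nsmul (ZMod p)] at h5
    rcases smul_eq_zero.1 (hT h5) with h | h
    · exfalso
      push_cast at h
      exact mul_ne_zero (pow_ne_zero _ h2) h2 h
    · exact h
  have hB : ∀ A B : SL(2, ZMod p), A.1 1 0 = 0 → B.1 1 0 = 0 → (A * B).1 1 0 = 0 := by
    intro A B hA hB
    simp [mul_apply, Fin.sum_univ_two, hA, hB]
  have hB' : ∀ A : SL(2, ZMod p), A.1 1 0 = 0 → (A⁻¹).1 1 0 = 0 := by
    intro A hA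
    rw [Matrix.SpecialLinearGroup.SL2_inv_expl]
    simp [hA]
  let X : Subgroup (G × SL(3, ZMod p)) :=
    { carrier := {q | ∃ v, ∃ n ∈ N, (θ n).1 1 0 = 0 ∧ q = (T v * n, qdAff (θ n) v)}
      one_mem' := ⟨0, 1, N.one_mem, by simp, by simp [hT0, qdAff_one, Prod.ext_iff]⟩
      mul_mem' := by
        rintro _ _ ⟨v, n, hn, hn', rfl⟩ ⟨w, m, hm, hm', rfl⟩
        refine ⟨v + (θ n).1 *ᵥ w, n * m, N.mul_mem hn hm, by rw [map_mul]; exact hB _ _ hn' hm', ?_⟩
        rw [Prod.mk_mul_mk, qdAff_mul, hadd, ← hact, map_mul]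
        simp [mul_assoc]
      inv_mem' := by
        rintro _ ⟨v, n, hn, hn', rfl⟩
        refine ⟨(θ n⁻¹).1 *ᵥ (-v), n⁻¹, N.inv_mem hn, by rw [map_inv]; exact hB' _ hn', ?_⟩
        apply inv_eq_of_mul_eq_one_right
        rw [Prod.mk_mul_mk, qdAff_mul, ← hact, hTneg, mulVec_mulVec, ← Matrix.SpecialLinearGroup.coe_mul,
          ← map_mul, mul_inv_cancel, map_one]
        simp [qdAff_one] }
  let f : X →* G := (MonoidHom.fst _ _).comp X.subtype
  have hf : Function.Injective f := by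
    rw [injective_iff_map_eq_one]
    rintro ⟨_, v, n, hn, hn', rfl⟩ h
    have h1 : T v * n = 1 := h
    have h3 : v = 0 := hNT n⁻¹ (N.inv_mem hn) v (eq_inv_of_mul_eq_one_left h1)
    subst h3
    rw [hT0, one_mul] at h1
    obtain rfl : n = 1 := Subtype.ext h1
    apply Subtype.ext
    simp [hT0, qdAff_one]
  let g : X →* fOver (ZMod p) := ((MonoidHom.snd _ _).comp X.subtype).codRestrict (fOver (ZMod p)) (by
    rintro ⟨_, v, n, hn, hn', rfl⟩
    exact Subgroup.subset_closure ⟨hn', rfl, rfl, rfl⟩)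
  have hg : Function.Surjective g := by
    have : fOver (ZMod p) ≤ ((MonoidHom.snd _ _).comp X.subtype).range := by
      rw [fOver, Subgroup.closure_le]
      rintro M ⟨h3, h0, h1, h2⟩
      obtain ⟨A, v, rfl⟩ := exists_qdAff_eq h0 h1 h2
      obtain ⟨n, hn, rfl⟩ := hNsurj A
      exact ⟨⟨_, v, n, hn, h3, rfl⟩, rfl⟩
    rintro ⟨M, hM⟩
    obtain ⟨x, hx⟩ := this hM
    exact ⟨x, Subtype.ext hx⟩
  refine ⟨f.range, g.comp (MonoidHom.ofInjective hf).symm.toMonoidHom, ?_,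
    hg.comp (MonoidHom.ofInjective hf).symm.surjective⟩
  rintro _ ⟨⟨_, v, n, hn, hn', rfl⟩, rfl⟩
  exact Y.mul_mem (hTY v) (hEY n hn')

/-- The conclusion of the local analysis. -/
def Concl (p : ℕ) [Fact p.Prime] {G : Type*} [Group G] (M Y : Subgroup G) : Prop :=
  (∃ (K : Subgroup G) (ψ : K →* fOver (ZMod p)), K ≤ M ∧ Function.Surjective ψ) ∧
    ∃ t ∈ M, ∃ y ∈ Y, y ≠ 1 ∧ ∃ n : ℕ, IsPrimitiveRoot (n : ZMod p) (p - 1) ∧ t * y * t⁻¹ = y ^ n

theorem Concl.mono {G : Type*} [Group G] {M M' Y Y' : Subgroup G} (h : Concl p M Y) (h1 : M ≤ M')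
    (h2 : Y ≤ Y') : Concl p M' Y' := by
  obtain ⟨⟨K, ψ, hK, hψ⟩, t, ht, y, hy, h⟩ := h
  exact ⟨⟨K, ψ, hK.trans h1, hψ⟩, t, h1 ht, y, h2 hy, h⟩

theorem Concl.map {G H : Type*} [Group G] [Group H] {M Y : Subgroup G} (h : Concl p M Y) (f : G →* H)
    (hf : Function.Injective f) : Concl p (M.map f) (Y.map f) := by
  obtain ⟨⟨K, ψ, hK, hψ⟩, t, ht, y, hy, hy1, n, hn, h⟩ := h
  refine ⟨⟨K.map f, ψ.comp (Subgroup.equivMapOfInjective K f hf).symm.toMonoidHom, Subgroup.map_mono hK,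
    hψ.comp (Subgroup.equivMapOfInjective K f hf).symm.surjective⟩, f t, ⟨t, ht, rfl⟩, f y, ⟨y, hy, rfl⟩,
    fun h1 => hy1 (hf (by rw [h1, map_one])), n, hn, ?_⟩
  rw [← map_inv, ← map_mul, ← map_mul, h, map_pow]

/-- An eigenvector modulo a subgroup of a finite abelian group lifts to an eigenvector. -/
theorem exists_eigen_lift {G H : Type*} [Group G] [Group H] [Finite G] (f : G →* H) {Y : Subgroup G}
    (hY : ∀ a ∈ Y, ∀ b ∈ Y, a * b = b * a) {t y : G} (ht : t ∈ Subgroup.normalizer (Y : Set G)) (hy : y ∈ Y)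
    (hy1 : f y ≠ 1) {n : ℕ} (h : f t * f y * (f t)⁻¹ = f y ^ n) :
    ∃ z ∈ Y, z ≠ 1 ∧ t * z * t⁻¹ = z ^ n := by
  have hc : ∀ a ∈ Y, t * a * t⁻¹ ∈ Y := fun a ha => (Subgroup.mem_normalizer_iff.1 ht a).1 ha
  let φ : Y →* Y :=
    { toFun := fun a => ⟨t * a * t⁻¹ * ((a : G) ^ n)⁻¹, Y.mul_mem (hc a a.2) (Y.inv_mem (Y.pow_mem a.2 n))⟩
      map_one' := Subtype.ext (by simp)
      map_mul' := fun a b => Subtype.ext (by
        have h1 : Commute (a : G) b := hY _ a.2 _ b.2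
        have h2 := hY _ (Y.inv_mem (Y.pow_mem a.2 n)) _ (hc b b.2)
        have h3 := hY _ (Y.inv_mem (Y.pow_mem a.2 n)) _ (Y.inv_mem (Y.pow_mem b.2 n))
        simp only [Subgroup.coe_mul]
        rw [h1.mul_pow, _root_.mul_inv_rev, ← h3]
        calc _ = t * a * t⁻¹ * (t * b * t⁻¹ * ((a : G) ^ n)⁻¹) * ((b : G) ^ n)⁻¹ := by group
          _ = _ := by rw [← h2]; group) }
  let Y0 : Subgroup Y := f.ker.subgroupOf Y
  let Y1 : Subgroup Y := Y0.comap φ
  have h01 : Y0 ≤ Y1 := by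
    intro a ha
    have ha' : f a = 1 := ha
    change f (t * a * t⁻¹ * ((a : G) ^ n)⁻¹) = 1
    simp [ha']
  have hy' : (⟨y, hy⟩ : Y) ∈ Y1 := by
    change f (t * y * t⁻¹ * (y ^ n)⁻¹) = 1
    rw [map_mul, map_mul, map_mul, map_inv, h, map_inv, map_pow, mul_inv_cancel]
  have hlt : Y0 < Y1 := lt_of_le_not_ge h01 fun h2 => hy1 (h2 hy')
  by_contra hcon
  push Not at hcon
  have hinj : Function.Injective (φ.subgroupComap Y0) := by
    rw [injective_iff_map_eq_one]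
    rintro ⟨a, ha⟩ h1
    have h2 : t * a * t⁻¹ * ((a : G) ^ n)⁻¹ = 1 := congrArg (fun x : Y0 => ((x : Y) : G)) h1
    by_contra h3
    exact hcon a a.2 (fun h4 => h3 (Subtype.ext (Subtype.ext h4))) (mul_inv_eq_one.1 h2)
  have h1 := Nat.card_le_card_of_injective _ hinj
  have h2 : Nat.card Y0 < Nat.card Y1 := by
    refine lt_of_le_of_ne (Subgroup.card_le_of_le h01) fun h3 => hlt.ne ?_
    exact Subgroup.eq_of_le_of_card_ge h01 h3.ge
  exact absurd h1 (not_le.2 h2)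

theorem Concl.comap {G H : Type*} [Group G] [Group H] [Finite G] (f : G →* H) (hf : Function.Surjective f)
    {M Y : Subgroup G} (hk : f.ker ≤ M) (hY : ∀ a ∈ Y, ∀ b ∈ Y, a * b = b * a)
    (hM : M ≤ Subgroup.normalizer (Y : Set G)) (h : Concl p (M.map f) (Y.map f)) : Concl p M Y := by
  obtain ⟨⟨K, ψ, hK, hψ⟩, _, ⟨t, ht, rfl⟩, _, ⟨y, hy, rfl⟩, hy1, n, hn, h⟩ := h
  refine ⟨⟨K.comap f, ψ.comp (f.subgroupComap K), ?_,
    hψ.comp (f.subgroupComap_surjective_of_surjective K hf)⟩, t, ht, ?_⟩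
  · refine (Subgroup.comap_mono hK).trans ?_
    rw [Subgroup.comap_map_eq, sup_eq_left.2 hk]
  · obtain ⟨z, hz, hz1, h⟩ := exists_eigen_lift f hY (hM ht) hy hy1 h
    exact ⟨z, hz, hz1, n, hn, h⟩

/-- Minimal normal elementary abelian subgroup with two quadratic generators. -/
theorem concl_of_minimal (hp2 : p ≠ 2) {Γ : Type*} [Group Γ] [Finite Γ] {U : Subgroup Γ} [U.Normal]
    (hU : IsElementaryAbelian p U) (hmin : ∀ N : Subgroup Γ, N.Normal → N ≤ U → N = ⊥ ∨ N = U)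
    (a b : Γ) (hab : Subgroup.closure {a, b} ⊔ Subgroup.centralizer (U : Set Γ) = ⊤)
    (ha : ⁅⁅U, Subgroup.zpowers a⁆, Subgroup.zpowers a⁆ = ⊥)
    (hb : ⁅⁅U, Subgroup.zpowers b⁆, Subgroup.zpowers b⁆ = ⊥)
    (hnu : ¬ ∀ h : Γ, ∃ k, h ^ p ^ k ∈ Subgroup.centralizer (U : Set Γ))
    {L₀ Y : Subgroup Γ}
    (hL₀ : ∀ X : Subgroup Γ, X ≠ ⊤ → a ∈ X → Subgroup.centralizer (U : Set Γ) ≤ X → X ≤ L₀)
    (hY : Y ≤ U) (hY1 : Y ≠ ⊥) (hn : L₀ ≤ Subgroup.normalizer (Y : Set Γ)) : Concl p L₀ Y := by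
  have hn' : (⊤ : Subgroup Γ) ≤ Subgroup.normalizer (U : Set Γ) := Subgroup.le_normalizer_of_normal
  let ρ : Γ →* Module.End (ZMod p) (EA hU) := (EA.rep hU ⊤ hn').comp Subgroup.topEquiv.symm.toMonoidHom
  have hρ : ∀ g v, (ρ g v).val = g * v.val * g⁻¹ := fun _ _ => rfl
  have hker : ∀ g, ρ g = 1 ↔ g ∈ Subgroup.centralizer (U : Set Γ) := fun g =>
    EA.rep_eq_one_iff (hV := hU) hn' ⟨g, trivial⟩
  have hgen : ∀ g, ∃ d ∈ Subgroup.closure ({a, b} : Set Γ), ρ g = ρ d := by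
    intro g
    have : g ∈ (Subgroup.closure ({a, b} : Set Γ) : Set Γ) * (Subgroup.centralizer (U : Set Γ) : Set Γ) := by
      rw [← Subgroup.mul_normal, hab]; trivial
    obtain ⟨d, hd, c, hc, rfl⟩ := this
    exact ⟨d, hd, by rw [map_mul, (hker c).2 hc, mul_one]⟩
  obtain ⟨X, hX, haX, hkX, E, θ, T, hθ, hT, hact, hBX, hCH⟩ := exists_borel_natural hp2 ρ a b hgen
    (EA.rep_sub_one_sq hn' ⟨a, trivial⟩ ha) (EA.rep_sub_one_sq hn' ⟨b, trivial⟩ hb)
    (fun W hW => by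
      have h1 : (EA.grp W).Normal := Subgroup.normalizer_eq_top_iff.1 (top_le_iff.1
        (EA.le_normalizer_grp hn' fun h v hv => hW h v hv))
      rcases hmin _ h1 (EA.grp_le W) with h | h
      · left
        rw [← EA.sub_grp W, h, eq_bot_iff]
        intro v hv
        exact EA.val_eq_one_iff.1 hv
      · right
        rw [← EA.sub_grp W, h, eq_top_iff]
        intro v _
        exact v.val_mem)
    (fun h => hnu fun g => by
      obtain ⟨d, hd, e⟩ := hgen g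
      obtain ⟨k, hk⟩ := h d hd
      exact ⟨k, by rw [← hker, map_pow, e, hk]⟩)
  have hXL : X ≤ L₀ := hL₀ X hX haX fun g hg => hkX ((hker g).2 hg)
  have hUX : U ≤ X := fun u hu => hkX ((hker u).2 (elemAb_le_centralizer hU hu))
  refine ⟨?_, ?_⟩
  · obtain ⟨K, ψ, hK, hψ⟩ := exists_surjective_f_of_natural hp2 E θ hθ (fun v => (T v).val)
      (EA.val_injective.comp hT) (fun v w => by simp) (fun h v => by rw [← hact, hρ]) X
      (fun v => hUX (T v).val_mem) hBX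
    exact ⟨K, ψ, hK.trans hXL, hψ⟩
  · obtain ⟨c, hc⟩ := IsCyclic.exists_generator (α := (ZMod p)ˣ)
    have hco : IsPrimitiveRoot c (p - 1) := by
      have := IsPrimitiveRoot.orderOf c
      rwa [orderOf_eq_card_of_forall_mem_zpowers hc, Nat.card_eq_fintype_card, ZMod.card_units] at this
    obtain ⟨t, ht⟩ := hθ ⟨!![(c : ZMod p), 0; 0, (c⁻¹ : (ZMod p)ˣ)], by
      rw [det_fin_two_of, Units.mul_inv, mul_zero, sub_zero]⟩
    have htL : (t : Γ) ∈ L₀ := hXL (hBX t (by rw [ht]; rfl))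
    have h1 := hCH t
    rw [ht] at h1
    simp only [trace_fin_two_of] at h1
    obtain ⟨y, hy, hy1⟩ := (Subgroup.bot_or_exists_ne_one Y).resolve_left hY1
    let v : EA hU := EA.of hU y (hY hy)
    have hv : v ∈ EA.sub hU Y := hy
    have hv' : ρ t v ∈ EA.sub hU Y := EA.rep_mem_sub hn' ⟨t, trivial⟩ (hn htL) hv
    have key : ∀ (w : EA hU) (d : (ZMod p)ˣ), IsPrimitiveRoot d (p - 1) → w ∈ EA.sub hU Y → w ≠ 0 →
        ρ t w = (d : ZMod p) • w →
        ∃ t ∈ L₀, ∃ y ∈ Y, y ≠ 1 ∧ ∃ n : ℕ, IsPrimitiveRoot (n : ZMod p) (p - 1) ∧ t * y * t⁻¹ = y ^ n := by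
      intro w d hd hw hw0 e
      refine ⟨t, htL, w.val, hw, fun h => hw0 (EA.val_eq_one_iff.1 h), (d : ZMod p).val, ?_, ?_⟩
      · rw [ZMod.natCast_zmod_val]
        exact IsPrimitiveRoot.coe_units_iff.2 hd
      · rw [← hρ, e, ← EA.val_natCast_smul, ZMod.natCast_zmod_val]
    by_cases h2 : ρ t v - ((c⁻¹ : (ZMod p)ˣ) : ZMod p) • v = 0
    · exact key v c⁻¹ hco.inv hv (fun h => hy1 (EA.val_eq_one_iff.2 h)) (sub_eq_zero.1 h2)
    · refine key _ c hco (Submodule.sub_mem _ hv' (Submodule.smul_mem _ _ hv)) h2 ?_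
      have h3 := congrArg (fun f : Module.End (ZMod p) (EA hU) => f v) h1
      simp only [LinearMap.add_apply, LinearMap.sub_apply, Module.End.mul_apply, LinearMap.smul_apply,
        Module.End.one_apply, LinearMap.zero_apply, add_smul] at h3
      rw [map_sub, map_smul, smul_sub, smul_smul, Units.mul_inv, one_smul, ← sub_eq_zero, ← h3]
      abel

end Cfsg.Agent.Fus.ZJF
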