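import Mathlib
import Cfsg.Agent.Fus.ZJFSec
import Cfsg.Agent.PLocal.ChiefAct
import Cfsg.Agent.PLocal.SecMod
import Cfsg.Agent.PLocal.PIrred
import Cfsg.Agent.Grp.MinNormal
import Cfsg.Agent.FGS.LowerFitting

/-!
A subgroup normalized by an overgroup of a Sylow subgroup and not centralized by `O^p` meets a noncentral chief
factor; the core of the local analysis.
-/

set_option autoImplicit false

namespace Cfsg.Agent.Fus.ZJF

open Subgroup Cfsg.Agent.PLocal Cfsg.Agent.PLocal.Amb Cfsg.Agent.PLocal.CP Cfsg.Agent.PLocal.CommMod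
  Cfsg.Agent.PLocal.ChiefAct
open scoped commutatorElement

variable {p : ℕ} [hp : Fact p.Prime]

theorem exists_fixed_of_index {R : Type*} [Group R] [Finite R] {A : Type*} [AddCommGroup A]
    (ρ : R →* Module.End ℤ A) (H : Subgroup R) (m : A) (hm : ∀ h ∈ H, ρ h m = m) (B : Submodule ℤ A)
    (hB : ∀ r, ρ r m - m ∈ B) : ∃ c, (∀ r, ρ r c = c) ∧ c - H.index • m ∈ B := by
  classical
  have := Fintype.ofFinite (R ⧸ H)
  have key : ∀ (r : R) (q : R ⧸ H), ρ r (ρ q.out m) = ρ (r • q).out m := by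
    intro r q
    have h1 : ((r • q).out)⁻¹ * (r * q.out) ∈ H := by
      rw [← QuotientGroup.eq, QuotientGroup.out_eq']
      conv_lhs => rw [← QuotientGroup.out_eq' q]
      rfl
    have h2 := hm _ h1
    conv_rhs => rw [← h2]
    rw [← Module.End.mul_apply, ← Module.End.mul_apply, ← map_mul, ← map_mul, mul_inv_cancel_left]
  refine ⟨∑ q : R ⧸ H, ρ q.out m, fun r => ?_, ?_⟩
  · rw [map_sum]
    simp only [key]
    exact Equiv.sum_comp (MulAction.toPerm r) (fun q : R ⧸ H => ρ q.out m)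
  · have : H.index • m = ∑ _q : R ⧸ H, m := by
      rw [Finset.sum_const, Finset.card_univ, index, Nat.card_eq_fintype_card]
    rw [this, ← Finset.sum_sub_distrib]
    exact B.sum_mem fun q _ => hB _

variable {Γ : Type*} [Group Γ] [Finite Γ]

theorem exists_chief_meeting {P L₀ V Y : Subgroup Γ} (hP : IsSyl p P ⊤) (hPL : P ≤ L₀) [V.Normal]
    (hV : IsPGroup p V) (hYV : Y ≤ V) (hY : ⁅Y, Y⁆ = ⊥) (hn : L₀ ≤ 𝐍[Y]) (V0 : Subgroup Γ)
    (h0 : V0.Normal) (h0V : V0 ≤ V) (hnc : ¬ ⁅Y, 𝐎[p, (⊤ : Subgroup Γ)]⁆ ≤ V0) :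
    ∃ U1 U2 : Subgroup Γ, IsChiefFactor U1 U2 ∧ V0 ≤ U2 ∧ U1 ≤ V ∧ ¬ ⁅U1, 𝐎[p, (⊤ : Subgroup Γ)]⁆ ≤ U2 ∧
      ¬ Y ⊓ U1 ≤ U2 := by
  induction V0 using WellFoundedGT.induction with
  | ind V0 ih =>
  set R := 𝐎[p, (⊤ : Subgroup Γ)] with hR
  have hRn : R.Normal := normal_of_top_le (le_normalizer_pRes p ⊤)
  have hlt : V0 < V := lt_of_le_of_ne h0V fun h => hnc (by
    rw [h]; exact (commutator_mono hYV le_rfl).trans (commutator_le_left _ _))
  obtain ⟨V1, hV1, hch⟩ := exists_chief_above hlt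
  have h1n := hch.2.1
  by_cases h1 : ⁅Y, R⁆ ≤ V1
  swap
  · obtain ⟨U1, U2, a1, a2, a3⟩ := ih V1 hch.1 h1n hV1 h1
    exact ⟨U1, U2, a1, hch.1.le.trans a2, a3⟩
  set V' := Y ⊔ V1 with hV'
  have hV'V : V' ≤ V := sup_le hYV hV1
  have hV'n : V'.Normal := normal_of_top_le (by
    rw [← hP.pRes_sup]
    exact sup_le (le_normalizer_sup_of_commutator_le (h1.trans le_sup_right) le_normalizer_of_normal)
      (hPL.trans (Amb.le_normalizer_sup hn le_normalizer_of_normal)))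
  have h2 : ⁅V', R⁆ ≤ V1 := commutator_sup_le_of_normal h1 (commutator_le_left _ _)
  have h3 : ¬ ⁅V1, R⁆ ≤ V0 := fun h => hnc (by
    refine (commutator_mono le_sup_left le_rfl : ⁅Y, R⁆ ≤ ⁅V', R⁆).trans ?_
    rw [← commutator_pRes_pRes (hV.to_le hV'V) le_normalizer_of_normal]
    exact (commutator_mono h2 le_rfl).trans h)
  by_cases h4 : Y ⊓ V1 ≤ V0
  swap
  · exact ⟨V1, V0, hch, le_rfl, hV1, h3, h4⟩
  have : (centMod R V0).Normal := centMod_normal R V0
  set C := V' ⊓ centMod R V0 with hC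
  have hCn : C.Normal := inferInstance
  have h0C : V0 ≤ C := le_inf (hch.1.le.trans le_sup_right)
    (le_centMod_of_normal.2 (commutator_le_left _ _))
  have hC1 : V1 ⊓ C ≤ V0 := by
    rcases hch.2.2.2 (V1 ⊓ C) inferInstance (le_inf hch.1.le h0C) inf_le_left with h | h
    · exact h.le
    · exact absurd (le_centMod_of_normal.1 ((h.ge.trans inf_le_right).trans inf_le_right)) h3
  have hc1 : ⁅V1, V⁆ ≤ V0 := commutator_le_of_isPGroup hch hV hV1
  have hs : SecHyp ⊤ V' V0 := ⟨hch.1.le.trans le_sup_right, by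
    refine commutator_sup_le_of_normal ?_ ((commutator_mono le_rfl hV'V).trans hc1)
    rw [commutator_comm]
    refine commutator_sup_le_of_normal (by rw [hY]; exact bot_le) ((commutator_mono le_rfl hYV).trans hc1),
    le_normalizer_of_normal, le_normalizer_of_normal⟩
  have hYC : Y ≤ C ⊔ V1 := by
    intro y hy
    have hyV : y ∈ V' := (le_sup_left : Y ≤ V') hy
    let ρ : R →* Module.End ℤ (Sec hs) := (Sec.rep hs).comp (inclusion le_top)
    have hρ : ∀ (r : R) {x : Γ}, x ∈ V' → ρ r (Sec.pr hs x) = Sec.pr hs (r * x * (r : Γ)⁻¹) :=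
      fun r x hx => Sec.rep_pr hs _ hx
    obtain ⟨c, hc, hc'⟩ := exists_fixed_of_index ρ (L₀.subgroupOf R) (Sec.pr hs y)
      (fun r hr => (Sec.rep_pr_eq_iff hs _ hyV).2 (h4 ⟨by
        change ⁅(r : Γ), y⁆ ∈ Y
        exact Y.mul_mem (Amb.conj_mem_of_mem_normalizer (hn hr) hy) (Y.inv_mem hy), by
        change ⁅(r : Γ), y⁆ ∈ V1
        rw [← commutatorElement_inv]
        exact V1.inv_mem (h1 (commutator_mem_commutator hy r.2))⟩))
      (Sec.sub hs V1) (fun r => by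
        have := Sec.rep_pr_sub hs (inclusion le_top r) hyV
        change (Sec.rep hs) (inclusion le_top r) _ - _ ∈ _
        rw [this]
        have h5 : ⁅(r : Γ), y⁆ ∈ V1 := by
          rw [← commutatorElement_inv]
          exact V1.inv_mem (h1 (commutator_mem_commutator hy r.2))
        exact Sec.pr_mem_sub hs h5 ((le_sup_right : V1 ≤ V') h5))
    obtain ⟨x, hx, rfl⟩ := Sec.exists_pr_eq hs c
    have hxC : x ∈ C := ⟨hx, mem_centMod_of_normal.2 fun r hr => by
      rw [← commutatorElement_inv]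
      exact V0.inv_mem ((Sec.rep_pr_eq_iff hs (inclusion le_top ⟨r, hr⟩) hx).1 (hc ⟨r, hr⟩))⟩
    rw [← Sec.pr_pow hs hyV, sub_eq_add_neg, ← Sec.pr_inv hs (V'.pow_mem hyV _),
      ← Sec.pr_mul hs hx (V'.inv_mem (V'.pow_mem hyV _)),
      Sec.pr_mem_sub_iff hs hch.1.le (V'.mul_mem hx (V'.inv_mem (V'.pow_mem hyV _)))] at hc'
    have h5 : y ^ (L₀.subgroupOf R).index ∈ C ⊔ V1 := by
      have := (C ⊔ V1).mul_mem ((C ⊔ V1).inv_mem ((le_sup_right : V1 ≤ C ⊔ V1) hc'))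
        ((le_sup_left : C ≤ C ⊔ V1) hxC)
      simpa using this
    refine mem_of_pow_mem_of_coprime h5 ?_
    obtain ⟨k, hk⟩ := isPGroup_iff.1 hV y (hYV hy)
    refine Nat.Coprime.coprime_dvd_left (orderOf_dvd_of_pow_eq_one hk) (Nat.Coprime.pow_left _ ?_)
    rw [hp.out.coprime_iff_not_dvd]
    intro h6
    exact (hP.inf_of_le le_top le_normalizer_of_normal : IsSyl p (P ⊓ R) R).not_dvd_relIndex
      (h6.trans (relIndex_dvd_of_le_left R (inf_le_left.trans hPL)))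
  have hV'C : V' = C ⊔ V1 := le_antisymm (sup_le hYC le_sup_right) (sup_le inf_le_left le_sup_right)
  refine ⟨V', C, ⟨lt_of_le_not_ge inf_le_left fun h => ?_, hV'n, hCn, fun N hN a1 a2 => ?_⟩, h0C, hV'V,
    fun h => h3 ?_, fun h => hnc ?_⟩
  · exact hch.1.not_ge ((le_inf le_rfl (le_sup_right.trans h)).trans hC1)
  · rcases hch.2.2.2 (V1 ⊓ N) inferInstance (le_inf hch.1.le (h0C.trans a1)) inf_le_left with h | h
    · left
      refine le_antisymm ?_ a1
      have := sup_inf_of_le_normalizer (B := V1) a1 le_normalizer_of_normal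
      rw [← hV'C, inf_eq_right.2 a2, h, sup_eq_left.2 h0C] at this
      exact this.le
    · right
      refine le_antisymm a2 ?_
      rw [hV'C]
      exact sup_le a1 (h.ge.trans inf_le_right)
  · exact (le_inf (commutator_le_left _ _) ((commutator_mono le_sup_right le_rfl).trans h)).trans hC1
  · exact le_centMod_of_normal.1 (((le_inf le_rfl le_sup_left).trans h).trans inf_le_right)

theorem concl_of_lemmaL (hp2 : p ≠ 2) {x : Γ} (hxp : IsPGroup p (zpowers x)) {L₀ : Subgroup Γ} (hL : L₀ ≠ ⊤)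
    (hmax : ∀ X : Subgroup Γ, zpowers x ⊔ pCore p Γ ≤ X → X ≠ ⊤ → X ≤ L₀)
    (hgen : ∀ g ∉ L₀, zpowers x ⊔ cj(g, zpowers x) ⊔ pCore p Γ = ⊤)
    {V V0 Y : Subgroup Γ} [V.Normal] [h0 : V0.Normal] (hV : IsPGroup p V) (h0V : V0 ≤ V) (hYV : Y ≤ V)
    (hY : ⁅Y, Y⁆ = ⊥) (hn : L₀ ≤ 𝐍[Y]) (hnc : ¬ ⁅Y, 𝐎[p, (⊤ : Subgroup Γ)]⁆ ≤ V0)
    (hq : ⁅⁅V, zpowers x⁆, zpowers x⁆ ≤ V0) : Concl p L₀ Y := by
  obtain ⟨P, hP, hxP⟩ := exists_isSyl_ge hxp le_top
  have hOP : pCore p Γ ≤ P := by rw [← Amb.pCoreOf_top]; exact hP.pCoreOf_le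
  have hPL : P ≤ L₀ := hmax P (sup_le hxP hOP) fun h => hnc (by
    rw [pRes_eq_bot (h ▸ hP.pgrp), commutator_bot_right]; exact bot_le)
  obtain ⟨U1, U2, hch, a1, a2, a3, a4⟩ := exists_chief_meeting hP hPL hV hYV hY hn V0 h0 h0V hnc
  have := hch.2.1
  have := hch.2.2.1
  set f := QuotientGroup.mk' U2 with hf
  have hfs : Function.Surjective f := QuotientGroup.mk'_surjective U2
  have hfk : f.ker = U2 := QuotientGroup.ker_mk' U2
  have hU2 : U2 ≤ pCore p Γ := le_pCore' (hV.to_le (hch.1.le.trans a2))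
  have : (U1.map f).Normal := Subgroup.Normal.map inferInstance _ hfs
  have hUp : IsPGroup p (U1.map f) := (hV.to_le a2).map f
  have hU0 : U1.map f ≠ ⊥ := fun h => hch.1.not_ge (by rwa [Subgroup.map_eq_bot_iff, hfk] at h)
  have hmin : ∀ N : Subgroup (Γ ⧸ U2), N.Normal → N ≤ U1.map f → N = ⊥ ∨ N = U1.map f := by
    intro N hN h
    have h1 : N = (N.comap f).map f := (map_comap_eq_self_of_surjective hfs N).symm
    rcases hch.2.2.2 (N.comap f) inferInstance (hfk.ge.trans (ker_le_comap f N)) (by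
      refine (comap_mono h).trans ?_
      rw [comap_map_eq, hfk, sup_eq_left.2 hch.1.le]) with h2 | h2
    · left
      rw [h1, h2, Subgroup.map_eq_bot_iff, hfk]
    · right
      rw [h1, h2]
  have hEA : IsElementaryAbelian p (U1.map f) := by
    have := hUp.isNilpotent
    obtain ⟨h1, q, hq, h2⟩ := Grp.minNormal_elementaryAbelian (U1.map f) hU0 hmin
    obtain ⟨u, hu, hu1⟩ := (bot_or_exists_ne_one _).resolve_left hU0
    obtain ⟨k, hk⟩ := isPGroup_iff.1 hUp u hu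
    have := Fact.mk hq
    have h3 : q = p := (Nat.prime_dvd_prime_iff_eq hq hp.out).1 (hq.dvd_of_dvd_pow
      (orderOf_eq_prime (h2 u hu) hu1 ▸ orderOf_dvd_of_pow_eq_one hk))
    exact ⟨h1, h3 ▸ h2⟩
  have : ((pCore p Γ).map f).Normal := Subgroup.Normal.map inferInstance _ hfs
  have hOC : (pCore p Γ).map f ≤ 𝐂[U1.map f] :=
    FGS.le_centralizer_of_minNormal hUp ((isPGroup_pCore' p Γ).map f) hmin
  obtain ⟨g, hg⟩ : ∃ g, g ∉ L₀ := by
    by_contra h
    push Not at h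
    exact hL (eq_top_iff.2 fun g _ => h g)
  have hqa : ⁅⁅U1.map f, zpowers (f x)⁆, zpowers (f x)⁆ = ⊥ := by
    rw [← MonoidHom.map_zpowers, ← map_commutator, ← map_commutator, Subgroup.map_eq_bot_iff, hfk]
    exact (commutator_mono (commutator_mono a2 le_rfl) le_rfl).trans (hq.trans a1)
  have hz : zpowers (f (g * x * g⁻¹)) = cj(f g, zpowers (f x)) := by
    rw [MonoidHom.map_zpowers]
    simp
  have hY' : ∀ a ∈ Y ⊓ U1, ∀ b ∈ Y ⊓ U1, a * b = b * a := fun a ha b hb =>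
    commutatorElement_eq_one_iff_mul_comm.1 (mem_bot.1 (hY ▸ commutator_mem_commutator ha.1 hb.1))
  have hn' : L₀ ≤ 𝐍[Y ⊓ U1] := Amb.le_normalizer_inf hn le_normalizer_of_normal
  refine (Concl.comap f hfs (hfk.le.trans (hU2.trans (hOP.trans hPL))) hY' hn' ?_).mono le_rfl inf_le_left
  refine concl_of_minimal hp2 hEA hmin (f x) (f (g * x * g⁻¹)) ?_ hqa ?_ ?_ ?_ (map_mono inf_le_right)
    (fun h => a4 (by rwa [Subgroup.map_eq_bot_iff, hfk] at h)) ?_
  · rw [eq_top_iff, ← map_top_of_surjective f hfs, ← hgen g hg, Subgroup.map_sup, Subgroup.map_sup, map_cj,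
      MonoidHom.map_zpowers, ← hz]
    refine sup_le_sup (sup_le ?_ ?_) hOC <;> rw [zpowers_le] <;> exact subset_closure (by simp)
  · rw [hz, ← cj_of_normal (f g) (U1.map f), commutator_cj, commutator_cj, hqa, cj_bot]
  · intro h
    apply a3
    have h1 : 𝐎[p, (⊤ : Subgroup (Γ ⧸ U2))] ≤ 𝐂[U1.map f] := pRes_le_of_pow fun g _ => h g
    rw [← map_top_of_surjective f hfs, ← map_pRes, ← commutator_eq_bot_iff_le_centralizer, ← map_commutator,
      Subgroup.map_eq_bot_iff, hfk, commutator_comm] at h1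
    exact h1
  · intro X hX hx hC
    rw [← map_comap_eq_self_of_surjective hfs X]
    refine map_mono (hmax _ (sup_le (zpowers_le.2 hx) (map_le_iff_le_comap.1 (hOC.trans hC))) fun h => hX ?_)
    rw [← map_comap_eq_self_of_surjective hfs X, h, map_top_of_surjective f hfs]
  · exact (map_mono hn').trans (le_normalizer_map f)

end Cfsg.Agent.Fus.ZJF
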